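import Cfsg.Agent.Lib.FeitHigman.Hecke
import Mathlib

/-!
# The Feit–Higman theorem, abstract algebraic form
-/

set_option autoImplicit false

namespace Cfsg.Agent.Lib.FeitHigman.Abstract

open Cfsg.Agent.Lib.FeitHigman.Seq Cfsg.Agent.Lib.FeitHigman.Hecke

/-- The rationals inside the reals. -/
noncomputable abbrev QQ : Subfield ℝ := (algebraMap ℚ ℝ).fieldRange

lemma nat_mem (n : ℕ) : (n : ℝ) ∈ QQ := natCast_mem QQ n

lemma exists_rat_of_mem {x : ℝ} (h : x ∈ QQ) : ∃ r : ℚ, x = r := by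
  obtain ⟨r, hr⟩ := h
  exact ⟨r, hr.symm⟩

/-- Rationality in the even case. -/
lemma even_rat {n N₁ N₂ Q A B τ : ℝ} (hn : n ∈ QQ) (hN₁ : N₁ ∈ QQ) (hN₂ : N₂ ∈ QQ) (hQ : Q ∈ QQ)
    (hA : A ∈ QQ) (hB : B ∈ QQ) (hn0 : 0 < n) (hN₁0 : 0 < N₁) (hN₂0 : 0 < N₂)
    (hAB : 4 * Q < A * B) (hg : A - B ≠ 0)
    (h1 : n * (4 * Q - τ ^ 2) = N₁ * ((A - τ) * (τ + B)))
    (h2 : n * (4 * Q - τ ^ 2) = N₂ * ((A + τ) * (-τ + B))) : τ ∈ QQ := by
  have hL1 : (N₁ + N₂) * (n * (4 * Q - τ ^ 2)) = 2 * N₁ * N₂ * (A * B - τ ^ 2) := by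
    linear_combination N₂ * h1 + N₁ * h2
  have hc : (2 * N₁ * N₂ - (N₁ + N₂) * n) * τ ^ 2 =
      2 * N₁ * N₂ * (A * B) - (N₁ + N₂) * n * (4 * Q) := by
    linear_combination hL1
  have hne : 2 * N₁ * N₂ - (N₁ + N₂) * n ≠ 0 := by
    intro h0
    rw [h0, zero_mul] at hc
    have h3 : 2 * N₁ * N₂ = (N₁ + N₂) * n := by linarith
    rw [← h3] at hc
    have h4 : 0 < 2 * N₁ * N₂ * (A * B - 4 * Q) := by
      have : 0 < A * B - 4 * Q := by linarith
      positivity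
    nlinarith
  have htwo : (2 : ℝ) ∈ QQ := by exact_mod_cast nat_mem 2
  have hfour : (4 : ℝ) ∈ QQ := by exact_mod_cast nat_mem 4
  have hsq : τ ^ 2 ∈ QQ := by
    have e : τ ^ 2 = (2 * N₁ * N₂ * (A * B) - (N₁ + N₂) * n * (4 * Q)) /
        (2 * N₁ * N₂ - (N₁ + N₂) * n) := by
      rw [eq_div_iff hne, ← hc]; ring
    rw [e]
    exact div_mem (sub_mem (mul_mem (mul_mem (mul_mem htwo hN₁) hN₂) (mul_mem hA hB))
      (mul_mem (mul_mem (add_mem hN₁ hN₂) hn) (mul_mem hfour hQ)))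
      (sub_mem (mul_mem (mul_mem htwo hN₁) hN₂) (mul_mem (add_mem hN₁ hN₂) hn))
  have hL2 : (N₂ - N₁) * (n * (4 * Q - τ ^ 2)) = (2 * N₁ * N₂ * (A - B)) * τ := by
    linear_combination N₂ * h1 - N₁ * h2
  have hne2 : 2 * N₁ * N₂ * (A - B) ≠ 0 := by positivity
  have e : τ = (N₂ - N₁) * (n * (4 * Q - τ ^ 2)) / (2 * N₁ * N₂ * (A - B)) := by
    rw [eq_div_iff hne2, hL2]; ring
  rw [e]
  exact div_mem (mul_mem (sub_mem hN₂ hN₁) (mul_mem hn (sub_mem (mul_mem hfour hQ) hsq)))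
    (mul_mem (mul_mem (mul_mem htwo hN₁) hN₂) (sub_mem hA hB))

/-- Rationality in the odd case. -/
lemma odd_rat {n N q τ : ℝ} (hn : n ∈ QQ) (hN : N ∈ QQ) (hq : q ∈ QQ) (hn0 : 0 < n)
    (hq1 : q ≠ 1) (hτ : τ + q + q ≠ 0)
    (h1 : n * (4 * (q * q) - τ ^ 2) = N * ((q * q + 1 - τ) * (τ + q + q))) : τ ∈ QQ := by
  have h2 : n * (2 * q - τ) = N * (q * q + 1 - τ) := by
    apply mul_right_cancel₀ hτ
    linear_combination h1
  have h3 : (N - n) * τ = N * (q * q + 1) - 2 * q * n := by linear_combination h2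
  have hne : N - n ≠ 0 := by
    intro h0
    have hNn : N = n := by linarith
    rw [h0, zero_mul, hNn] at h3
    have h4 : n * (q - 1) ^ 2 = 0 := by linear_combination -h3
    have h5 : (q - 1) ^ 2 ≠ 0 := pow_ne_zero _ (sub_ne_zero.mpr hq1)
    exact (mul_ne_zero hn0.ne' h5) h4
  have hone : (1 : ℝ) ∈ QQ := one_mem _
  have htwo : (2 : ℝ) ∈ QQ := by exact_mod_cast nat_mem 2
  have e : τ = (N * (q * q + 1) - 2 * q * n) / (N - n) := by
    rw [eq_div_iff hne, ← h3]; ring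
  rw [e]
  exact div_mem (sub_mem (mul_mem hN (add_mem (mul_mem hq hq) hone))
    (mul_mem (mul_mem htwo hq) hn)) (sub_mem hN hn)

lemma pos_factors {q r τ : ℝ} (hq : 2 ≤ q) (hr : 2 ≤ r) (h : τ ^ 2 < 4 * (q * r)) :
    0 < q * r + 1 - τ ∧ 0 < τ + q + r := by
  have hQ : 0 < q * r := by positivity
  have h1 : τ ^ 2 < (q * r + 1) ^ 2 := by nlinarith [sq_nonneg (q * r - 1)]
  have h2 : τ ^ 2 < (q + r) ^ 2 := by nlinarith [sq_nonneg (q - r)]
  have h3 := abs_lt_of_sq_lt_sq h1 (by positivity)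
  have h4 := abs_lt_of_sq_lt_sq h2 (by positivity)
  rw [abs_lt] at h3 h4
  constructor <;> linarith [h3.1, h3.2, h4.1, h4.2]

section

variable {X : Type*} [Fintype X] [DecidableEq X] [Nonempty X]
  {S T : Matrix X X ℝ} {q r : ℕ} (hq : 2 ≤ q) (hr : 2 ≤ r)
  (hSS : S * S = ((q : ℝ) - 1) • S + (q : ℝ) • (1 : Matrix X X ℝ))
  (hTT : T * T = ((r : ℝ) - 1) • T + (r : ℝ) • (1 : Matrix X X ℝ))
  (htS : Matrix.trace S = 0)

include hq hr hSS hTT htS in
/-- All the eigenvalues are rational in the even case. -/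
lemma even_case (e : ℕ) (hbraid : (S * T) ^ (e + 2) = (T * S) ^ (e + 2))
    (htr : ∀ i ≤ e + 1, Matrix.trace (Yw S T i) = 0 ∧ Matrix.trace ((S * T) ^ (i + 1)) = 0)
    {j : ℕ} (hj0 : 0 < j) (hjd : j < e + 2) :
    2 * Real.sqrt ((q : ℝ) * r) * Real.cos (Real.pi * j / (e + 2 : ℕ)) ∈ QQ := by
  set ρ := Real.sqrt ((q : ℝ) * r) with hρ
  have hq' : (2 : ℝ) ≤ q := by exact_mod_cast hq
  have hr' : (2 : ℝ) ≤ r := by exact_mod_cast hr
  have hQpos : 0 < (q : ℝ) * r := by positivity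
  have hρ2 : (q : ℝ) * r = ρ ^ 2 := by rw [hρ, Real.sq_sqrt hQpos.le]
  have hρ0 : 0 < ρ := Real.sqrt_pos.mpr hQpos
  have hd : (0 : ℝ) < ((e + 2 : ℕ) : ℝ) := by positivity
  have hpi := Real.pi_pos
  set φ := Real.pi * j / (e + 2 : ℕ) with hφ
  have hj' : (0 : ℝ) < j := by exact_mod_cast hj0
  have hjd' : (j : ℝ) < ((e + 2 : ℕ) : ℝ) := by exact_mod_cast hjd
  have hφ0 : 0 < φ := by positivity
  have hφpi : φ < Real.pi := by
    rw [hφ, div_lt_iff₀ hd]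
    nlinarith
  have hsin : 0 < Real.sin φ := Real.sin_pos_of_pos_of_lt_pi hφ0 hφpi
  set τ := 2 * ρ * Real.cos φ with hτ
  -- the root conditions
  have hroot : ∀ ψ : ℝ, 0 < Real.sin ψ → Real.sin (((e + 2 : ℕ) : ℝ) * ψ) = 0 →
      U (2 * ρ * Real.cos ψ) ((q : ℝ) * r) (e + 1) = 0 := by
    intro ψ hψ h0
    have h1 := U_sin hρ2 ψ (e + 1)
    have e1 : (((e + 1 : ℕ) : ℝ) + 1) * ψ = ((e + 2 : ℕ) : ℝ) * ψ := by push_cast; ring
    rw [e1, h0, mul_zero] at h1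
    exact (mul_eq_zero.mp h1).resolve_right hψ.ne'
  have hr1 : U τ ((q : ℝ) * r) (e + 1) = 0 := by
    apply hroot φ hsin
    have e1 : ((e + 2 : ℕ) : ℝ) * φ = (j : ℝ) * Real.pi := by
      rw [hφ]; field_simp
    rw [e1]
    exact Real.sin_nat_mul_pi j
  have hcosneg : -τ = 2 * ρ * Real.cos (Real.pi - φ) := by
    rw [Real.cos_pi_sub, hτ]; ring
  have hr2 : U (-τ) ((q : ℝ) * r) (e + 1) = 0 := by
    rw [hcosneg]
    apply hroot (Real.pi - φ) (by rw [Real.sin_pi_sub]; exact hsin)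
    have e1 : ((e + 2 : ℕ) : ℝ) * (Real.pi - φ) = ((e + 2 - j : ℕ) : ℝ) * Real.pi := by
      rw [Nat.cast_sub hjd.le, hφ]; field_simp
    rw [e1]
    exact Real.sin_nat_mul_pi _
  -- bounds
  have hsq : τ ^ 2 < 4 * ((q : ℝ) * r) := by
    rw [hτ, hρ2]
    have : Real.cos φ ^ 2 < 1 := by
      have := Real.sin_sq_add_cos_sq φ
      nlinarith
    nlinarith [sq_pos_of_pos hρ0]
  obtain ⟨hp1, hp2⟩ := pos_factors hq' hr' hsq
  have hsq' : (-τ) ^ 2 < 4 * ((q : ℝ) * r) := by rwa [neg_sq]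
  obtain ⟨hp3, hp4⟩ := pos_factors hq' hr' hsq'
  obtain ⟨ρ₁, h1⟩ := key_even hSS hTT (by positivity) (by positivity) htS e hbraid htr hr1
    (mul_pos hp1 hp2).ne'
  obtain ⟨ρ₂, h2⟩ := key_even hSS hTT (by positivity) (by positivity) htS e hbraid htr hr2
    (mul_pos hp3 hp4).ne'
  rw [neg_sq] at h2
  have hn0 : (0 : ℝ) < Fintype.card X := by exact_mod_cast Fintype.card_pos
  have hL : 0 < (Fintype.card X : ℝ) * (4 * ((q : ℝ) * r) - τ ^ 2) :=
    mul_pos hn0 (by linarith)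
  have hρ1pos : (0 : ℝ) < ρ₁ * (2 * (e + 2)) := by
    by_contra hcon
    have h3 : (ρ₁ : ℝ) * (2 * (e + 2)) = 0 := by
      have : (0 : ℝ) ≤ ρ₁ * (2 * (e + 2)) := by positivity
      linarith
    rw [h3, zero_mul] at h1
    linarith
  have hρ2pos : (0 : ℝ) < ρ₂ * (2 * (e + 2)) := by
    by_contra hcon
    have h3 : (ρ₂ : ℝ) * (2 * (e + 2)) = 0 := by
      have : (0 : ℝ) ≤ ρ₂ * (2 * (e + 2)) := by positivity
      linarith
    rw [h3, zero_mul] at h2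
    linarith
  have htwo : (2 : ℝ) ∈ QQ := by exact_mod_cast nat_mem 2
  have hone : (1 : ℝ) ∈ QQ := one_mem _
  have hee : ((e : ℝ) + 2) ∈ QQ := add_mem (nat_mem e) htwo
  refine even_rat (n := Fintype.card X) (N₁ := ρ₁ * (2 * (e + 2))) (N₂ := ρ₂ * (2 * (e + 2)))
    (Q := (q : ℝ) * r) (A := (q : ℝ) * r + 1) (B := (q : ℝ) + r) (τ := τ) (nat_mem _)
    (mul_mem (nat_mem _) (mul_mem htwo hee)) (mul_mem (nat_mem _) (mul_mem htwo hee))
    (mul_mem (nat_mem _) (nat_mem _)) (add_mem (mul_mem (nat_mem _) (nat_mem _)) hone)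
    (add_mem (nat_mem _) (nat_mem _)) hn0 hρ1pos hρ2pos ?_ ?_ ?_ ?_
  · nlinarith [mul_pos hQpos (by linarith : (0:ℝ) < (q:ℝ) + r - 4 + 1), sq_nonneg ((q:ℝ) - r)]
  · have : (q : ℝ) * r + 1 - ((q : ℝ) + r) = ((q : ℝ) - 1) * ((r : ℝ) - 1) := by ring
    rw [this]
    have h5 : (0:ℝ) < (q:ℝ) - 1 := by linarith
    have h6 : (0:ℝ) < (r:ℝ) - 1 := by linarith
    positivity
  · linear_combination h1
  · linear_combination h2

include hq hSS htS in
/-- The eigenvalue is rational in the odd case. -/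
lemma odd_case (hTT : T * T = ((q : ℝ) - 1) • T + (q : ℝ) • (1 : Matrix X X ℝ)) (e : ℕ)
    (hbraid : (T * S) ^ (e + 2) * T = (S * T) ^ (e + 2) * S)
    (htr : ∀ i ≤ e + 1, Matrix.trace (Yw S T i) = 0 ∧ Matrix.trace ((S * T) ^ (i + 1)) = 0) :
    2 * (q : ℝ) * Real.cos (2 * Real.pi / (2 * e + 5 : ℕ)) ∈ QQ := by
  have hq' : (2 : ℝ) ≤ q := by exact_mod_cast hq
  have hq0 : (0 : ℝ) < q := by linarith
  have hm : (0 : ℝ) < ((2 * e + 5 : ℕ) : ℝ) := by positivity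
  have hm5 : (5 : ℝ) ≤ ((2 * e + 5 : ℕ) : ℝ) := by
    push_cast
    have : (0 : ℝ) ≤ e := Nat.cast_nonneg e
    linarith
  have hpi := Real.pi_pos
  set φ := 2 * Real.pi / (2 * e + 5 : ℕ) with hφ
  have hφ0 : 0 < φ := by positivity
  have hφ1 : φ ≤ 2 * Real.pi / 5 := by
    rw [hφ]
    exact div_le_div_of_nonneg_left (by positivity) (by norm_num) hm5
  have hφpi : φ < Real.pi := by nlinarith
  have hsin : 0 < Real.sin φ := Real.sin_pos_of_pos_of_lt_pi hφ0 hφpi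
  set τ := 2 * (q : ℝ) * Real.cos φ with hτ
  have hQQ : (q : ℝ) * q = (q : ℝ) ^ 2 := by ring
  have hroot : U τ ((q : ℝ) * q) (e + 2) + q * U τ ((q : ℝ) * q) (e + 1) = 0 := by
    have h1 := U_sin hQQ φ (e + 2)
    have h2 := U_sin hQQ φ (e + 1)
    have e1 : ((e + 2 : ℕ) + 1 : ℝ) * φ = 2 * Real.pi - ((e + 1 : ℕ) + 1 : ℝ) * φ := by
      have : ((2 * e + 5 : ℕ) : ℝ) * φ = 2 * Real.pi := by
        rw [hφ]; field_simp
      push_cast at this ⊢
      linear_combination this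
    rw [e1, Real.sin_two_pi_sub] at h1
    have h3 : (U τ ((q : ℝ) * q) (e + 2) + q * U τ ((q : ℝ) * q) (e + 1)) * Real.sin φ = 0 := by
      rw [add_mul, mul_assoc, h1, h2, pow_succ (q : ℝ) (e + 1)]
      ring
    exact (mul_eq_zero.mp h3).resolve_right hsin.ne'
  have hcos1 : Real.cos φ ^ 2 < 1 := by
    have := Real.sin_sq_add_cos_sq φ
    nlinarith
  have hsq : τ ^ 2 < 4 * ((q : ℝ) * q) := by
    rw [hτ]
    nlinarith [sq_pos_of_pos hq0]
  obtain ⟨hp1, hp2⟩ := pos_factors hq' hq' hsq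
  have hτ2 : 2 * (q : ℝ) + τ ≠ 0 := by linarith
  obtain ⟨ρ₁, h1⟩ := key_odd hSS hTT hq0 htS e hbraid htr hroot hτ2 (mul_pos hp1 hp2).ne'
  have hn0 : (0 : ℝ) < Fintype.card X := by exact_mod_cast Fintype.card_pos
  have htwo : (2 : ℝ) ∈ QQ := by exact_mod_cast nat_mem 2
  have hfive : (5 : ℝ) ∈ QQ := by exact_mod_cast nat_mem 5
  refine odd_rat (n := Fintype.card X) (N := ρ₁ * (2 * e + 5)) (q := q) (nat_mem _)
    (mul_mem (nat_mem _) (add_mem (mul_mem htwo (nat_mem _)) hfive)) (nat_mem _) hn0 ?_ hp2.ne' ?_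
  · intro h
    rw [h] at hq'
    norm_num at hq'
  · linear_combination h1

end

/-- Niven for `2π/m`. -/
lemma niven_aux {m : ℕ} (hm : 5 ≤ m) (h : Real.cos (2 * Real.pi / m) ∈ QQ) : m = 6 := by
  have hm' : (5 : ℝ) ≤ m := by exact_mod_cast hm
  have hm0 : (0 : ℝ) < m := by linarith
  have hpi := Real.pi_pos
  set θ := 2 * Real.pi / m with hθ
  have hθ0 : 0 < θ := by positivity
  have hθ1 : θ ≤ 2 * Real.pi / 5 := by
    rw [hθ]
    exact div_le_div_of_nonneg_left (by positivity) (by norm_num) hm'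
  have hpos : 0 < Real.cos θ :=
    Real.cos_pos_of_mem_Ioo ⟨by linarith, by nlinarith⟩
  have hlt : Real.cos θ < 1 := by
    have := Real.cos_lt_cos_of_nonneg_of_le_pi (le_refl 0) (by nlinarith : θ ≤ Real.pi) hθ0
    simpa using this
  have hn := niven (θ := θ) ⟨2 / m, by rw [hθ]; push_cast; ring⟩ (exists_rat_of_mem h)
  simp only [Set.mem_insert_iff, Set.mem_singleton_iff] at hn
  have h12 : Real.cos θ = 1 / 2 := by
    rcases hn with h1 | h1 | h1 | h1 | h1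
    · linarith
    · linarith
    · linarith
    · exact h1
    · linarith
  have hθ3 : θ = Real.pi / 3 := by
    apply Real.injOn_cos
    · exact ⟨hθ0.le, by nlinarith⟩
    · exact ⟨by positivity, by linarith⟩
    · rw [h12, Real.cos_pi_div_three]
  have h6 : (m : ℝ) = 6 := by
    rw [hθ] at hθ3
    field_simp at hθ3
    linarith
  exact_mod_cast h6

section

variable {X : Type*} [Fintype X] [DecidableEq X] [Nonempty X]

/-- The abstract Feit–Higman theorem. -/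
theorem main {S T : Matrix X X ℝ} {q r : ℕ} (hq : 2 ≤ q) (hr : 2 ≤ r) {m : ℕ} (hm : 2 ≤ m)
    (hSS : S * S = ((q : ℝ) - 1) • S + (q : ℝ) • (1 : Matrix X X ℝ))
    (hTT : T * T = ((r : ℝ) - 1) • T + (r : ℝ) • (1 : Matrix X X ℝ))
    (htS : Matrix.trace S = 0)
    (htrY : ∀ i, 2 * i + 1 ≤ m → Matrix.trace (Yw S T i) = 0)
    (htrX : ∀ i, 2 * i + 2 ≤ m → Matrix.trace ((S * T) ^ (i + 1)) = 0)
    (hbe : ∀ d, m = 2 * d → (S * T) ^ d = (T * S) ^ d)
    (hbo : ∀ d, m = 2 * d + 1 → (T * S) ^ d * T = (S * T) ^ d * S)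
    (hqr : Odd m → q = r) : m = 2 ∨ m = 3 ∨ m = 4 ∨ m = 6 ∨ m = 8 := by
  have hq' : (2 : ℝ) ≤ q := by exact_mod_cast hq
  have hr' : (2 : ℝ) ≤ r := by exact_mod_cast hr
  rcases Nat.even_or_odd m with hev | hod
  · obtain ⟨d, hd⟩ := hev
    have hd2 : m = 2 * d := by omega
    by_cases hd5 : d ≤ 4
    · have : d = 1 ∨ d = 2 ∨ d = 3 ∨ d = 4 := by omega
      rcases this with rfl | rfl | rfl | rfl <;> omega
    · exfalso
      obtain ⟨e, rfl⟩ : ∃ e, d = e + 2 := ⟨d - 2, by omega⟩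
      have htr : ∀ i ≤ e + 1, Matrix.trace (Yw S T i) = 0 ∧ Matrix.trace ((S * T) ^ (i + 1)) = 0 :=
        fun i hi => ⟨htrY i (by omega), htrX i (by omega)⟩
      have hb := hbe (e + 2) hd2
      have hQpos : 0 < (q : ℝ) * r := by positivity
      set ρ := Real.sqrt ((q : ℝ) * r) with hρ
      have hρ2 : ρ ^ 2 = (q : ℝ) * r := by rw [hρ, Real.sq_sqrt hQpos.le]
      have hρ0 : 0 < ρ := Real.sqrt_pos.mpr hQpos
      have hj1 := even_case hq hr hSS hTT htS e hb htr (j := 1) (by norm_num) (by omega)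
      have hcos : Real.cos (2 * Real.pi / (e + 2 : ℕ)) ∈ QQ := by
        have e1 : 2 * Real.pi / (e + 2 : ℕ) = 2 * (Real.pi * (1 : ℕ) / (e + 2 : ℕ)) := by
          push_cast; ring
        rw [e1, Real.cos_two_mul]
        set c := Real.cos (Real.pi * (1 : ℕ) / (e + 2 : ℕ)) with hc
        have e2 : 2 * c ^ 2 - 1 = (2 * ρ * c) ^ 2 / (2 * ((q : ℝ) * r)) - 1 := by
          have : (2 * ρ * c) ^ 2 = 4 * ρ ^ 2 * c ^ 2 := by ring
          rw [this, hρ2]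
          field_simp
          ring
        rw [e2]
        have htwo : (2 : ℝ) ∈ QQ := by exact_mod_cast nat_mem 2
        exact sub_mem (div_mem (pow_mem hj1 2) (mul_mem htwo (mul_mem (nat_mem _) (nat_mem _))))
          (one_mem _)
      have hd6 := niven_aux (m := e + 2) (by omega) hcos
      have he : e = 4 := by omega
      subst he
      have hj2 := even_case hq hr hSS hTT htS 4 hb htr (j := 2) (by norm_num) (by omega)
      have e1 : Real.pi * ((1 : ℕ) : ℝ) / ((4 + 2 : ℕ) : ℝ) = Real.pi / 6 := by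
        push_cast; ring
      have e2 : Real.pi * ((2 : ℕ) : ℝ) / ((4 + 2 : ℕ) : ℝ) = Real.pi / 3 := by
        push_cast; ring
      rw [e1, Real.cos_pi_div_six] at hj1
      rw [e2, Real.cos_pi_div_three] at hj2
      have h3 : Real.sqrt 3 ∈ QQ := by
        have e3 : Real.sqrt 3 = (2 * ρ * (Real.sqrt 3 / 2)) / (2 * ρ * (1 / 2)) := by
          field_simp
        rw [e3]
        exact div_mem hj1 hj2
      obtain ⟨x, hx⟩ := exists_rat_of_mem h3
      have hirr : Irrational (Real.sqrt 3) := Nat.Prime.irrational_sqrt Nat.prime_three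
      exact hirr ⟨x, hx.symm⟩
  · obtain ⟨d, hd⟩ := hod
    by_cases hd5 : m = 3
    · omega
    · exfalso
      have hqr' := hqr ⟨d, hd⟩
      subst hqr'
      obtain ⟨e, rfl⟩ : ∃ e, d = e + 2 := ⟨d - 2, by omega⟩
      have htr : ∀ i ≤ e + 1, Matrix.trace (Yw S T i) = 0 ∧ Matrix.trace ((S * T) ^ (i + 1)) = 0 :=
        fun i hi => ⟨htrY i (by omega), htrX i (by omega)⟩
      have hb := hbo (e + 2) hd
      have h1 := odd_case hq hSS htS hTT e hb htr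
      have hc : Real.cos (2 * Real.pi / (2 * e + 5 : ℕ)) ∈ QQ := by
        have h0 : (q : ℝ) ≠ 0 := by linarith
        have e1 : Real.cos (2 * Real.pi / (2 * e + 5 : ℕ)) =
            (2 * (q : ℝ) * Real.cos (2 * Real.pi / (2 * e + 5 : ℕ))) / (2 * q) := by
          field_simp
        rw [e1]
        have htwo : (2 : ℝ) ∈ QQ := by exact_mod_cast nat_mem 2
        exact div_mem h1 (mul_mem htwo (nat_mem _))
      have := niven_aux (m := 2 * e + 5) (by omega) hc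
      omega

end

end Cfsg.Agent.Lib.FeitHigman.Abstract
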