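import Cfsg.Agent.Lib.FeitHigman.Rank
import Mathlib

/-!
# The family `D` built from the two Hecke generators
-/

set_option autoImplicit false

namespace Cfsg.Agent.Lib.FeitHigman.Hecke

open Cfsg.Agent.Lib.FeitHigman.Seq Cfsg.Agent.Lib.FeitHigman.Rank

section Algebra

variable {A : Type*} [Ring A] [Algebra ℝ A]

/-- The word `T (S T)^i = (T S)^i T`. -/
def Yw (S T : A) (i : ℕ) : A := (T * S) ^ i * T

/-- The family `D`. -/
noncomputable def DD (S T : A) (q : ℝ) : ℕ → A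
  | 0 => (q + 1)⁻¹ • (1 + S)
  | (i + 1) => (q + 1)⁻¹ • ((1 + S) * Yw S T i * (1 + S))

variable {S T : A} {q r : ℝ}

lemma Yw_zero : Yw S T 0 = T := by simp [Yw]

lemma Yw_succ (i : ℕ) : Yw S T (i + 1) = T * S * Yw S T i := by
  simp only [Yw, pow_succ', mul_assoc]

lemma ST_pow_succ (i : ℕ) : (S * T) ^ (i + 1) = S * Yw S T i := by
  have h : SemiconjBy S (T * S) (S * T) := by
    simp only [SemiconjBy, mul_assoc]
  have h2 := h.pow_right i
  have h3 : S * (T * S) ^ i = (S * T) ^ i * S := h2.eq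
  simp only [Yw]
  rw [pow_succ, ← mul_assoc S, h3, mul_assoc]

lemma S_mul_TS_pow (i : ℕ) : S * (T * S) ^ i = (S * T) ^ i * S := by
  have h : SemiconjBy S (T * S) (S * T) := by
    simp only [SemiconjBy, mul_assoc]
  exact (h.pow_right i).eq

lemma TS_pow_succ (i : ℕ) : (T * S) ^ (i + 1) = Yw S T i * S := by
  simp only [Yw]
  rw [pow_succ, mul_assoc]

lemma sand_lin (P X Y : A) (a b : ℝ) :
    P * (a • X + b • Y) * P = a • (P * X * P) + b • (P * Y * P) := by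
  rw [mul_add, add_mul, mul_smul_comm, mul_smul_comm, smul_mul_assoc, smul_mul_assoc]

section Rels

variable (hSS : S * S = (q - 1) • S + q • (1 : A)) (hTT : T * T = (r - 1) • T + r • (1 : A))
  (ha : q + 1 ≠ 0)

include hSS in
lemma hPP : (1 + S) * (1 + S) = (q + 1) • (1 + S) := by
  rw [mul_add, add_mul, add_mul, hSS]
  simp only [one_mul, mul_one]
  module

include hSS in
lemma hPS : (1 + S) * S = q • (1 + S) := by
  rw [add_mul, hSS, one_mul]
  module

include hSS in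
lemma hSP : S * (1 + S) = q • (1 + S) := by
  rw [mul_add, hSS, mul_one]
  module

include hSS ha in
lemma P_mul_D0 (Y : A) :
    (q + 1)⁻¹ • ((1 + S) * Y * (1 + S)) * ((q + 1)⁻¹ • (1 + S)) =
      (q + 1)⁻¹ • ((1 + S) * Y * (1 + S)) := by
  rw [smul_mul_smul_comm, mul_assoc ((1 + S) * Y), hPP hSS, mul_smul_comm, smul_smul]
  congr 1
  field_simp

include hSS ha in
lemma D0_mul_P (Y : A) :
    ((q + 1)⁻¹ • (1 + S)) * ((q + 1)⁻¹ • ((1 + S) * Y)) = (q + 1)⁻¹ • ((1 + S) * Y) := by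
  rw [smul_mul_smul_comm, ← mul_assoc, hPP hSS, smul_mul_assoc, smul_smul]
  congr 1
  field_simp

include hSS ha in
/-- Product of `D 1` with a sandwiched element. -/
lemma D1_mul (Y : A) :
    DD S T q 1 * ((q + 1)⁻¹ • ((1 + S) * Y * (1 + S))) =
      (q + 1)⁻¹ • ((1 + S) * (T * Y) * (1 + S)) + (q + 1)⁻¹ • ((1 + S) * (T * S * Y) * (1 + S)) := by
  have h1 : DD S T q 1 = (q + 1)⁻¹ • ((1 + S) * T * (1 + S)) := by
    simp only [DD, Yw_zero]
  rw [h1, smul_mul_smul_comm]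
  have h2 : (1 + S) * T * (1 + S) * ((1 + S) * Y * (1 + S)) =
      (1 + S) * T * ((1 + S) * (1 + S)) * Y * (1 + S) := by
    simp only [mul_assoc]
  rw [h2, hPP hSS]
  have h3 : (1 + S) * T * ((q + 1) • (1 + S)) * Y * (1 + S) =
      (q + 1) • ((1 + S) * T * (1 + S) * Y * (1 + S)) := by
    simp only [mul_smul_comm, smul_mul_assoc]
  rw [h3, smul_smul]
  have h4 : (q + 1)⁻¹ * (q + 1)⁻¹ * (q + 1) = (q + 1)⁻¹ := by field_simp
  rw [h4, ← smul_add]
  congr 1
  noncomm_ring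

include hSS ha in
lemma D00 (i : ℕ) : DD S T q 0 * DD S T q i = DD S T q i := by
  cases i with
  | zero =>
    simp only [DD]
    rw [smul_mul_smul_comm, hPP hSS, smul_smul]
    congr 1
    field_simp
  | succ i =>
    simp only [DD]
    have h := D0_mul_P hSS ha (Yw S T i * (1 + S))
    simpa only [mul_assoc] using h

include hSS ha in
lemma D10 : DD S T q 1 * DD S T q 0 = DD S T q 1 := by
  simp only [DD]
  exact P_mul_D0 hSS ha _

include hSS hTT ha in
lemma D11 : DD S T q 1 * DD S T q 1 =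
    (r - 1) • DD S T q 1 + (r * (q + 1)) • DD S T q 0 + DD S T q 2 := by
  have h1 : DD S T q 1 = (q + 1)⁻¹ • ((1 + S) * T * (1 + S)) := by simp only [DD, Yw_zero]
  have h2 : DD S T q 2 = (q + 1)⁻¹ • ((1 + S) * (T * S * T) * (1 + S)) := by
    change (q + 1)⁻¹ • ((1 + S) * Yw S T 1 * (1 + S)) = _
    rw [Yw_succ, Yw_zero]
  have h0 : DD S T q 0 = (q + 1)⁻¹ • (1 + S) := rfl
  have h := D1_mul (T := T) hSS ha T
  rw [← h1] at h
  rw [h1, h2, h0]
  rw [h1] at h
  rw [h, hTT]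
  have e1 : (1 + S) * ((r - 1) • T + r • (1 : A)) * (1 + S) =
      (r - 1) • ((1 + S) * T * (1 + S)) + r • ((1 + S) * (1 + S)) := by
    simp only [mul_add, add_mul, smul_mul_assoc, mul_smul_comm, one_mul, mul_one]
    module
  rw [e1, hPP hSS]
  module

include hSS hTT ha in
lemma D1s (i : ℕ) : DD S T q 1 * DD S T q (i + 2) =
    (r - 1) • DD S T q (i + 2) + (q * r) • DD S T q (i + 1) + DD S T q (i + 3) := by
  have h := D1_mul (T := T) hSS ha (Yw S T (i + 1))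
  have h2 : DD S T q (i + 2) = (q + 1)⁻¹ • ((1 + S) * Yw S T (i + 1) * (1 + S)) := rfl
  have h1 : DD S T q (i + 1) = (q + 1)⁻¹ • ((1 + S) * Yw S T i * (1 + S)) := rfl
  have h3 : DD S T q (i + 3) = (q + 1)⁻¹ • ((1 + S) * Yw S T (i + 2) * (1 + S)) := rfl
  have e1 : T * Yw S T (i + 1) = (r - 1) • Yw S T (i + 1) + r • (S * Yw S T i) := by
    calc T * Yw S T (i + 1) = (T * T) * (S * Yw S T i) := by rw [Yw_succ]; simp only [mul_assoc]
      _ = _ := by
        rw [hTT, Yw_succ]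
        simp only [add_mul, smul_mul_assoc, one_mul, mul_assoc]
  have e2 : T * S * Yw S T (i + 1) = Yw S T (i + 2) := (Yw_succ (i + 1)).symm
  have e3 : (1 + S) * (S * Yw S T i) * (1 + S) = q • ((1 + S) * Yw S T i * (1 + S)) := by
    rw [← mul_assoc (1 + S) S, hPS hSS]
    simp only [smul_mul_assoc]
  rw [h2, h, h1, h3, e1, e2]
  rw [sand_lin, e3]
  module

include hSS in
lemma sandwich1 (Y : A) : (1 + S) * (S * Y) * (1 + S) = q • ((1 + S) * Y * (1 + S)) := by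
  rw [← mul_assoc (1 + S) S, hPS hSS]
  simp only [smul_mul_assoc]

include hSS in
lemma sandwich2 (Y : A) : (1 + S) * (S * Y * S) * (1 + S) = (q ^ 2) • ((1 + S) * Y * (1 + S)) := by
  have h : (1 + S) * (S * Y * S) * (1 + S) = ((1 + S) * S) * Y * (S * (1 + S)) := by
    simp only [mul_assoc]
  rw [h, hPS hSS, hSP hSS]
  simp only [smul_mul_assoc, mul_smul_comm, smul_smul]
  congr 1
  ring

include hSS in
/-- The top relation, even case. -/
lemma top_even (hTT : T * T = (r - 1) • T + r • (1 : A)) (e : ℕ)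
    (hbraid : (S * T) ^ (e + 2) = (T * S) ^ (e + 2)) :
    DD S T q (e + 3) = ((r - 1) * q) • DD S T q (e + 2) + (r * q ^ 2) • DD S T q (e + 1) := by
  have h3 : DD S T q (e + 3) = (q + 1)⁻¹ • ((1 + S) * Yw S T (e + 2) * (1 + S)) := rfl
  have h2 : DD S T q (e + 2) = (q + 1)⁻¹ • ((1 + S) * Yw S T (e + 1) * (1 + S)) := rfl
  have h1 : DD S T q (e + 1) = (q + 1)⁻¹ • ((1 + S) * Yw S T e * (1 + S)) := rfl
  have e1 : Yw S T (e + 2) = (r - 1) • (S * Yw S T (e + 1)) + r • (S * Yw S T e * S) := by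
    have e2 : Yw S T (e + 2) = (S * T) ^ (e + 1) * S * (T * T) := by
      simp only [Yw]
      rw [← hbraid, pow_succ (S * T) (e + 1)]
      simp only [mul_assoc]
    rw [e2, hTT]
    have e3 : (S * T) ^ (e + 1) * S * T = S * Yw S T (e + 1) := by
      rw [mul_assoc, ← pow_succ, ST_pow_succ]
    have e4 : (S * T) ^ (e + 1) * S = S * Yw S T e * S := by
      rw [ST_pow_succ]
    rw [mul_add, mul_smul_comm, mul_smul_comm, mul_one, e3, e4]
  rw [h3, h2, h1, e1]
  rw [sand_lin, sandwich1 hSS, sandwich2 hSS]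
  module

include hSS in
/-- The top relation, odd case. -/
lemma top_odd (e : ℕ) (hbraid : (T * S) ^ (e + 2) * T = (S * T) ^ (e + 2) * S) :
    DD S T q (e + 3) = (q ^ 2) • DD S T q (e + 2) + (0 : ℝ) • DD S T q (e + 1) := by
  have h3 : DD S T q (e + 3) = (q + 1)⁻¹ • ((1 + S) * Yw S T (e + 2) * (1 + S)) := rfl
  have h2 : DD S T q (e + 2) = (q + 1)⁻¹ • ((1 + S) * Yw S T (e + 1) * (1 + S)) := rfl
  have e1 : Yw S T (e + 2) = S * Yw S T (e + 1) * S := by
    simp only [Yw]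
    rw [hbraid, ST_pow_succ (e + 1)]
    rfl
  rw [h3, h2, e1, sandwich2 hSS, zero_smul, add_zero]
  module

end Rels

end Algebra

section Mat

variable {X : Type*} [Fintype X] [DecidableEq X] {S T : Matrix X X ℝ} {q r : ℝ}

/-- The relations in `Rels`. -/
lemma rels_DD (hSS : S * S = (q - 1) • S + q • (1 : Matrix X X ℝ))
    (hTT : T * T = (r - 1) • T + r • (1 : Matrix X X ℝ)) (ha : q + 1 ≠ 0) :
    Rels (DD S T q) q r where
  h00 := D00 hSS ha
  h10 := D10 hSS ha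
  h11 := D11 hSS hTT ha
  h1s := D1s hSS hTT ha

lemma trace_D0 (ht : Matrix.trace S = 0) :
    Matrix.trace (DD S T q 0) = (q + 1)⁻¹ * Fintype.card X := by
  simp only [DD]
  rw [Matrix.trace_smul, Matrix.trace_add, ht, Matrix.trace_one]
  simp

lemma trace_D (hSS : S * S = (q - 1) • S + q • (1 : Matrix X X ℝ)) (ha : q + 1 ≠ 0) (i : ℕ) :
    Matrix.trace (DD S T q (i + 1)) =
      Matrix.trace (Yw S T i) + Matrix.trace ((S * T) ^ (i + 1)) := by
  simp only [DD]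
  rw [Matrix.trace_smul, Matrix.trace_mul_comm, ← mul_assoc, hPP hSS, smul_mul_assoc,
    Matrix.trace_smul, smul_eq_mul, smul_eq_mul, ← mul_assoc, inv_mul_cancel₀ ha, one_mul,
    ST_pow_succ, add_mul, one_mul, Matrix.trace_add]

/-- The key formula, even case. -/
theorem key_even (hSS : S * S = (q - 1) • S + q • (1 : Matrix X X ℝ))
    (hTT : T * T = (r - 1) • T + r • (1 : Matrix X X ℝ)) (hq : 0 < q) (hr : 0 < r)
    (htS : Matrix.trace S = 0) (e : ℕ)
    (hbraid : (S * T) ^ (e + 2) = (T * S) ^ (e + 2))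
    (htr : ∀ i ≤ e + 1, Matrix.trace (Yw S T i) = 0 ∧ Matrix.trace ((S * T) ^ (i + 1)) = 0)
    {τ : ℝ} (hU : U τ (q * r) (e + 1) = 0) (hR : (q * r + 1 - τ) * (τ + q + r) ≠ 0) :
    ∃ ρ : ℕ, (Fintype.card X : ℝ) * (4 * (q * r) - τ ^ 2) =
      ρ * (2 * (e + 2)) * ((q * r + 1 - τ) * (τ + q + r)) := by
  have hq0 : q ≠ 0 := hq.ne'
  have hr0 : r ≠ 0 := hr.ne'
  have hq1 : q + 1 ≠ 0 := by positivity
  have hcl := even_closed τ hq0 hr0 hq1 hU
  set K := KK τ q r (e + 1) + w q r (e + 2) * z τ q r (e + 2) ^ 2 / (q + 1) with hK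
  have hK0 : K ≠ 0 := by
    intro h0
    rw [h0] at hcl
    simp only [mul_zero, zero_mul] at hcl
    have h2 : (2 : ℝ) * (e + 2) ≠ 0 := by positivity
    exact mul_ne_zero h2 hR hcl.symm
  have hroot := even_root τ (r := r) hq0 hU
  obtain ⟨ρ, hρ⟩ := rank_main (D := DD S T q) (τ := τ) (rels_DD hSS hTT hq1) hq0 hr0 hq1 e
    (α := (r - 1) * q) (β := r * q ^ 2) (c := q + 1) (top_even hSS hTT e hbraid) hroot
    (by ring) hq1 (by
      intro i hi
      rw [trace_D hSS hq1, (htr i hi).1, (htr i hi).2, add_zero]) hK0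
  refine ⟨ρ, ?_⟩
  rw [trace_D0 htS] at hρ
  have h1 : (Fintype.card X : ℝ) = (q + 1) * (ρ * K) := by
    rw [← hρ]; field_simp
  rw [h1]
  linear_combination ρ * hcl

/-- The key formula, odd case. -/
theorem key_odd (hSS : S * S = (q - 1) • S + q • (1 : Matrix X X ℝ))
    (hTT : T * T = (q - 1) • T + q • (1 : Matrix X X ℝ)) (hq : 0 < q)
    (htS : Matrix.trace S = 0) (e : ℕ)
    (hbraid : (T * S) ^ (e + 2) * T = (S * T) ^ (e + 2) * S)
    (htr : ∀ i ≤ e + 1, Matrix.trace (Yw S T i) = 0 ∧ Matrix.trace ((S * T) ^ (i + 1)) = 0)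
    {τ : ℝ} (hU : U τ (q * q) (e + 2) + q * U τ (q * q) (e + 1) = 0) (hτ : 2 * q + τ ≠ 0)
    (hR : (q * q + 1 - τ) * (τ + q + q) ≠ 0) :
    ∃ ρ : ℕ, (Fintype.card X : ℝ) * (4 * (q * q) - τ ^ 2) =
      ρ * (2 * e + 5) * ((q * q + 1 - τ) * (τ + q + q)) := by
  have hq0 : q ≠ 0 := hq.ne'
  have hq1 : q + 1 ≠ 0 := by positivity
  have hcl := odd_closed τ hq0 hq1 hU hτ
  have hKe : KK τ q q (e + 2) = KK τ q q (e + 1) + w q q (e + 2) * z τ q q (e + 2) ^ 2 / 1 := by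
    rw [div_one]; rfl
  set K := KK τ q q (e + 1) + w q q (e + 2) * z τ q q (e + 2) ^ 2 / 1 with hK
  rw [hKe] at hcl
  have hK0 : K ≠ 0 := by
    intro h0
    rw [h0] at hcl
    simp only [mul_zero, zero_mul] at hcl
    have h2 : (2 : ℝ) * e + 5 ≠ 0 := by positivity
    exact mul_ne_zero h2 hR hcl.symm
  have hroot : z τ q q (e + 3) = (q ^ 2) * z τ q q (e + 2) + 0 * z τ q q (e + 1) := by
    rw [(odd_values τ hq0 hU hτ).1]; ring
  obtain ⟨ρ, hρ⟩ := rank_main (D := DD S T q) (τ := τ) (rels_DD hSS hTT hq1) hq0 hq0 hq1 e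
    (α := q ^ 2) (β := 0) (c := 1) (top_odd hSS e hbraid) hroot
    (by ring) one_ne_zero (by
      intro i hi
      rw [trace_D hSS hq1, (htr i hi).1, (htr i hi).2, add_zero]) hK0
  refine ⟨ρ, ?_⟩
  rw [trace_D0 htS] at hρ
  have h1 : (Fintype.card X : ℝ) = (q + 1) * (ρ * K) := by
    rw [← hρ]; field_simp
  rw [h1]
  linear_combination ρ * hcl

end Mat

end Cfsg.Agent.Lib.FeitHigman.Hecke
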