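import Cfsg.Agent.Lib.FeitHigman.Mat
import Mathlib

/-!
# The Feit–Higman theorem
-/

set_option autoImplicit false

namespace Cfsg.Agent.Lib.FeitHigman.Main

open Cfsg.Agent.Lib.BNPair.Coxeter Cfsg.Agent.Lib.BNPair.Basic Cfsg.Agent.Lib.BNPair.Simple
open Cfsg.Agent.Lib.FeitHigman.Words Cfsg.Agent.Lib.FeitHigman.Mat
open Cfsg.Agent.Lib.FeitHigman.Hecke

/-- Alternating products in a monoid. -/
def altMat {A : Type*} [Monoid A] (x y : A) : ℕ → A
  | 0 => 1
  | (k + 1) => x * altMat y x k

lemma altMat_even {A : Type*} [Monoid A] (x y : A) (i : ℕ) : altMat x y (2 * i) = (x * y) ^ i := by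
  induction i with
  | zero => simp [altMat]
  | succ i ih =>
    rw [show 2 * (i + 1) = (2 * i + 1) + 1 by ring]
    change x * (y * altMat x y (2 * i)) = _
    rw [ih, pow_succ', mul_assoc]

lemma altMat_odd {A : Type*} [Monoid A] (x y : A) (i : ℕ) :
    altMat x y (2 * i + 1) = (x * y) ^ i * x := by
  induction i with
  | zero => simp [altMat]
  | succ i ih =>
    rw [show 2 * (i + 1) + 1 = (2 * i + 1) + 1 + 1 by ring]
    change x * (y * altMat x y (2 * i + 1)) = _
    rw [ih, pow_succ']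
    simp only [mul_assoc]

variable {G : Type*} [Group G] {P : Cfsg.BNPair G}

section

variable [Fintype (G ⧸ P.B)] [DecidableEq (G ⧸ P.B)]

theorem AA_alt {c d : P.S} (hS : ∀ s : P.S, s = c ∨ s = d) {m : ℕ}
    (hm : ∀ n, 0 < n → n < m → (sw P c * sw P d) ^ n ≠ 1 ∧ (sw P d * sw P c) ^ n ≠ 1) (k : ℕ)
    (hk : k ≤ m) :
    AA P (altP (sw P c) (sw P d) k) = altMat (AA P (sw P c)) (AA P (sw P d)) k ∧
      AA P (altP (sw P d) (sw P c) k) = altMat (AA P (sw P d)) (AA P (sw P c)) k := by
  induction k with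
  | zero => exact ⟨AA_one, AA_one⟩
  | succ k ih =>
    obtain ⟨h1, h2⟩ := ih (by omega)
    obtain ⟨l1, l2⟩ := len_alt hS hm k (by omega)
    obtain ⟨l3, l4⟩ := len_alt hS hm (k + 1) hk
    rw [altP_succ] at l3 l4
    constructor
    · rw [altP_succ, ← AA_mul (by omega), h2]
      rfl
    · rw [altP_succ, ← AA_mul (by omega), h1]
      rfl

end

lemma mulVec_mul {X : Type*} [Fintype X] [DecidableEq X] {A B : Matrix X X ℝ} {a b : ℝ}
    (hA : A.mulVec 1 = a • (1 : X → ℝ)) (hB : B.mulVec 1 = b • (1 : X → ℝ)) :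
    (A * B).mulVec 1 = (a * b) • (1 : X → ℝ) := by
  rw [← Matrix.mulVec_mulVec, hB, Matrix.mulVec_smul, hA, smul_smul, mul_comm]

lemma mulVec_pow {X : Type*} [Fintype X] [DecidableEq X] {A : Matrix X X ℝ} {a : ℝ}
    (hA : A.mulVec 1 = a • (1 : X → ℝ)) (d : ℕ) : (A ^ d).mulVec 1 = (a ^ d) • (1 : X → ℝ) := by
  induction d with
  | zero => simp
  | succ d ih =>
    rw [pow_succ, pow_succ]
    exact mulVec_mul ih hA

/-- **Feit–Higman.** -/
theorem main {G : Type*} [Group G] [Finite G] (P : Cfsg.BNPair G) (h2 : P.rank = 2) :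
    ((P.B ⊓ P.N).subgroupOf P.N).index ∈ ({4, 6, 8, 12, 16} : Set ℕ) := by
  classical
  letI : Fintype (G ⧸ P.B) := Fintype.ofFinite _
  obtain ⟨c, d, hcd, huniv⟩ := Nat.card_eq_two_iff.mp h2
  have hS : ∀ s : P.S, s = c ∨ s = d := by
    intro s
    have : s ∈ ({c, d} : Set P.S) := by rw [huniv]; trivial
    simpa using this
  have hfin : Finite (WW P) := inferInstance
  set x := sw P c with hx
  set y := sw P d with hy
  have hxx : x * x = 1 := sw_mul_self c
  have hyy : y * y = 1 := sw_mul_self d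
  set m := orderOf (x * y) with hmdef
  have hm0 : 0 < m := orderOf_pos _
  have hm1 : m ≠ 1 := by
    intro h
    have h1 : x * y = 1 := orderOf_eq_one_iff.mp h
    have h2 : x = y := by
      calc x = x * (y * y) := by rw [hyy, mul_one]
        _ = (x * y) * y := by rw [mul_assoc]
        _ = y := by rw [h1, one_mul]
    exact hcd (sw_injective h2)
  have hm2 : 2 ≤ m := by omega
  have hyx : y * x = (x * y)⁻¹ := by
    rw [mul_inv_rev, show x⁻¹ = x from sw_inv c, show y⁻¹ = y from sw_inv d]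
  have hmm : ∀ n, 0 < n → n < m → (x * y) ^ n ≠ 1 ∧ (y * x) ^ n ≠ 1 := by
    intro n h0 h1
    have h2 : (x * y) ^ n ≠ 1 := pow_ne_one_of_lt_orderOf h0.ne' h1
    refine ⟨h2, ?_⟩
    rw [hyx, inv_pow]
    exact inv_ne_one.mpr h2
  have halt := AA_alt hS hmm
  have hlen := len_alt hS hmm
  set S := AA P x with hSdef
  set T := AA P y with hTdef
  have hq : 2 ≤ qq P x := two_le_qq c
  have hr : 2 ≤ qq P y := two_le_qq d
  have hne1 : ∀ k, 0 < k → k ≤ m → altP x y k ≠ 1 ∧ altP y x k ≠ 1 := by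
    intro k h0 hk
    obtain ⟨l1, l2⟩ := hlen k hk
    constructor
    · intro h
      rw [h, len_one] at l1
      omega
    · intro h
      rw [h, len_one] at l2
      omega
  have hbraid : altP x y m = altP y x m := by
    have := altP_eq hxx hyy m
    rw [hmdef, pow_orderOf_eq_one, one_mul] at this
    exact this
  have hcard := card_WW hS
  have key := Cfsg.Agent.Lib.FeitHigman.Abstract.main (X := G ⧸ P.B) (S := S) (T := T)
    (q := qq P x) (r := qq P y) hq hr (m := m) hm2 (AA_sq c) (AA_sq d)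
    (trace_AA (sw_ne_one c))
    (by
      intro i hi
      have h1 := (halt (2 * i + 1) hi).2
      rw [altMat_odd] at h1
      change Matrix.trace ((T * S) ^ i * T) = 0
      rw [← h1]
      exact trace_AA (hne1 _ (by omega) hi).2)
    (by
      intro i hi
      have h1 := (halt (2 * (i + 1)) (by omega)).1
      rw [altMat_even] at h1
      rw [← h1]
      exact trace_AA (hne1 _ (by omega) (by omega)).1)
    (by
      intro e he
      have h1 := (halt m le_rfl).1
      have h3 := (halt m le_rfl).2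
      rw [← hbraid, h1] at h3
      rw [he, altMat_even, altMat_even] at h3
      exact h3)
    (by
      intro e he
      have h1 := (halt m le_rfl).1
      have h3 := (halt m le_rfl).2
      rw [← hbraid, h1] at h3
      rw [he, altMat_odd, altMat_odd] at h3
      exact h3.symm)
    (by
      rintro ⟨e, he⟩
      have h1 := (halt m le_rfl).1
      have h3 := (halt m le_rfl).2
      rw [← hbraid, h1] at h3
      rw [he, altMat_odd, altMat_odd] at h3
      have v1 : S.mulVec 1 = (qq P x : ℝ) • (1 : G ⧸ P.B → ℝ) := mulVec_AA x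
      have v2 : T.mulVec 1 = (qq P y : ℝ) • (1 : G ⧸ P.B → ℝ) := mulVec_AA y
      have e1 := mulVec_mul (mulVec_pow (mulVec_mul v1 v2) e) v1
      have e2 := mulVec_mul (mulVec_pow (mulVec_mul v2 v1) e) v2
      rw [h3, e2] at e1
      have hpt : ((1 : G) : G ⧸ P.B) = ((1 : G) : G ⧸ P.B) := rfl
      have e3 := congrFun e1 ((1 : G) : G ⧸ P.B)
      simp only [Pi.smul_apply, Pi.one_apply, smul_eq_mul, mul_one] at e3
      have hq0 : (qq P x : ℝ) ≠ 0 := by
        have : (2 : ℝ) ≤ qq P x := by exact_mod_cast hq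
        linarith
      have hr0 : (qq P y : ℝ) ≠ 0 := by
        have : (2 : ℝ) ≤ qq P y := by exact_mod_cast hr
        linarith
      have e4 : ((qq P x : ℝ) * qq P y) ^ e ≠ 0 := pow_ne_zero _ (mul_ne_zero hq0 hr0)
      rw [mul_comm (qq P y : ℝ) (qq P x : ℝ)] at e3
      have e5 := mul_left_cancel₀ e4 e3
      exact_mod_cast e5.symm)
  have hindex : ((P.B ⊓ P.N).subgroupOf P.N).index = 2 * m := by
    rw [Subgroup.index_eq_card]
    exact hcard
  rw [hindex]
  simp only [Set.mem_insert_iff, Set.mem_singleton_iff]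
  omega

end Cfsg.Agent.Lib.FeitHigman.Main
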