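import Cfsg.Agent.Lib.FeitHigman.Words
import Cfsg.Agent.Lib.FeitHigman.Abstract
import Mathlib

/-!
# The Hecke operators of a (B,N)-pair on the chambers `G / B`
-/

set_option autoImplicit false

namespace Cfsg.Agent.Lib.FeitHigman.Mat

open Cfsg.Agent.Lib.BNPair.Coxeter Cfsg.Agent.Lib.BNPair.Basic Cfsg.Agent.Lib.BNPair.Simple
open Cfsg.Agent.Lib.FeitHigman.Words

variable {G : Type*} [Group G] {P : Cfsg.BNPair G}

lemma C_sandwich {w : WW P} {g b b' : G} (hb : b ∈ P.B) (hb' : b' ∈ P.B) :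
    b * g * b' ∈ C P w ↔ g ∈ C P w := by
  constructor
  · intro h
    have h1 := mul_mem_C_right (P.B.inv_mem hb') (mul_mem_C_left (P.B.inv_mem hb) h)
    have e : b⁻¹ * (b * g * b') * b'⁻¹ = g := by group
    rwa [e] at h1
  · intro h
    exact mul_mem_C_right hb' (mul_mem_C_left hb h)

variable (P) in
open Classical in
/-- The Hecke operator attached to `w`. -/
noncomputable def AA (w : WW P) : Matrix (G ⧸ P.B) (G ⧸ P.B) ℝ :=
  fun x y => if x.out⁻¹ * y.out ∈ C P w then 1 else 0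

open Classical in
lemma AA_mk (w : WW P) (g h : G) :
    AA P w (g : G ⧸ P.B) (h : G ⧸ P.B) = if g⁻¹ * h ∈ C P w then 1 else 0 := by
  obtain ⟨b₁, hb₁⟩ := QuotientGroup.mk_out_eq_mul P.B g
  obtain ⟨b₂, hb₂⟩ := QuotientGroup.mk_out_eq_mul P.B h
  simp only [AA]
  rw [hb₁, hb₂]
  have e : (g * (b₁ : G))⁻¹ * (h * (b₂ : G)) = (b₁ : G)⁻¹ * (g⁻¹ * h) * b₂ := by group
  rw [e]
  congr 1
  exact propext (C_sandwich (P.B.inv_mem b₁.2) b₂.2)

lemma AA_mk_eq_one {w : WW P} {g h : G} (hm : g⁻¹ * h ∈ C P w) :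
    AA P w (g : G ⧸ P.B) (h : G ⧸ P.B) = 1 := by
  rw [AA_mk, if_pos hm]

lemma AA_mk_eq_zero {w : WW P} {g h : G} (hm : g⁻¹ * h ∉ C P w) :
    AA P w (g : G ⧸ P.B) (h : G ⧸ P.B) = 0 := by
  rw [AA_mk, if_neg hm]

variable [Fintype (G ⧸ P.B)]

/-- `A_s A_w = A_{sw}` when `l(sw) > l(w)`. -/
theorem AA_mul {s : P.S} {w : WW P} (h : len P w ≤ len P (sw P s * w)) :
    AA P (sw P s) * AA P w = AA P (sw P s * w) := by
  ext x y
  obtain ⟨g, rfl⟩ := QuotientGroup.mk_surjective x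
  obtain ⟨k, rfl⟩ := QuotientGroup.mk_surjective y
  rw [Matrix.mul_apply]
  by_cases hmem : g⁻¹ * k ∈ C P (sw P s * w)
  · rw [AA_mk_eq_one hmem]
    obtain ⟨g₁, hg₁, g₂, hg₂, he⟩ := exists_mul_of_mem_C_mul hmem
    rw [Finset.sum_eq_single ((g * g₁ : G) : G ⧸ P.B)]
    · have h1 : g⁻¹ * (g * g₁) ∈ C P (sw P s) := by rwa [inv_mul_cancel_left]
      have h2 : (g * g₁)⁻¹ * k ∈ C P w := by
        have : (g * g₁)⁻¹ * k = g₂ := by
          have e2 : k = g * (g₁ * g₂) := by rw [← he]; group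
          rw [e2]; group
        rwa [this]
      rw [AA_mk_eq_one h1, AA_mk_eq_one h2, one_mul]
    · intro z _ hz
      obtain ⟨l, rfl⟩ := QuotientGroup.mk_surjective z
      by_cases h1 : g⁻¹ * l ∈ C P (sw P s)
      · by_cases h2 : l⁻¹ * k ∈ C P w
        · exfalso
          apply hz
          have hg₁' : g₁⁻¹ ∈ C P (sw P s) := by
            have := inv_mem_C hg₁
            rwa [sw_inv] at this
          have h3 := mul_mem_C_of_s hg₁' h1
          rw [sw_mul_self, C_one] at h3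
          rcases h3 with h3 | h3
          · have h3' : g₁⁻¹ * (g⁻¹ * l) ∈ P.B := h3
            rw [QuotientGroup.eq]
            have e3 : l⁻¹ * (g * g₁) = (g₁⁻¹ * (g⁻¹ * l))⁻¹ := by group
            rw [e3]
            exact P.B.inv_mem h3'
          · exfalso
            have h4 : g₁⁻¹ * (g⁻¹ * l) * (l⁻¹ * k) ∈ C P (sw P s * w) :=
              mul_mem_C_of_le' h h3 h2
            have h5 : g₁⁻¹ * (g⁻¹ * l) * (l⁻¹ * k) = g₂ := by
              have e2 : k = g * (g₁ * g₂) := by rw [← he]; group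
              rw [e2]; group
            rw [h5] at h4
            have h6 := eq_of_mem_C h4 hg₂
            exact sw_ne_one s (mul_eq_right.mp h6)
        · rw [AA_mk_eq_zero h2, mul_zero]
      · rw [AA_mk_eq_zero h1, zero_mul]
    · intro hcon
      exact absurd (Finset.mem_univ _) hcon
  · rw [AA_mk_eq_zero hmem]
    apply Finset.sum_eq_zero
    intro z _
    obtain ⟨l, rfl⟩ := QuotientGroup.mk_surjective z
    by_cases h1 : g⁻¹ * l ∈ C P (sw P s)
    · by_cases h2 : l⁻¹ * k ∈ C P w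
      · exfalso
        apply hmem
        have h4 := mul_mem_C_of_le' h h1 h2
        have e : g⁻¹ * l * (l⁻¹ * k) = g⁻¹ * k := by group
        rwa [e] at h4
      · rw [AA_mk_eq_zero h2, mul_zero]
    · rw [AA_mk_eq_zero h1, zero_mul]

lemma trace_AA {w : WW P} (hw : w ≠ 1) : Matrix.trace (AA P w) = 0 := by
  apply Finset.sum_eq_zero
  intro z _
  obtain ⟨g, rfl⟩ := QuotientGroup.mk_surjective z
  change AA P w (g : G ⧸ P.B) (g : G ⧸ P.B) = 0
  apply AA_mk_eq_zero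
  rw [inv_mul_cancel]
  intro h
  apply hw
  have h1 : (1 : G) ∈ C P (1 : WW P) := by
    rw [C_one]; exact P.B.one_mem
  exact eq_of_mem_C h h1

variable [DecidableEq (G ⧸ P.B)]

lemma AA_one : AA P (1 : WW P) = 1 := by
  ext x y
  obtain ⟨g, rfl⟩ := QuotientGroup.mk_surjective x
  obtain ⟨k, rfl⟩ := QuotientGroup.mk_surjective y
  rw [Matrix.one_apply]
  by_cases h : g⁻¹ * k ∈ P.B
  · have h1 : g⁻¹ * k ∈ C P (1 : WW P) := by rw [C_one]; exact h
    rw [AA_mk_eq_one h1, if_pos (QuotientGroup.eq.mpr h)]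
  · have h1 : g⁻¹ * k ∉ C P (1 : WW P) := by rw [C_one]; exact h
    rw [AA_mk_eq_zero h1, if_neg (fun h2 => h (QuotientGroup.eq.mp h2))]

/-- Row sums are constant. -/
lemma row_eq (w : WW P) (g : G) :
    ∑ z, AA P w (g : G ⧸ P.B) z = ∑ z, AA P w ((1 : G) : G ⧸ P.B) z := by
  refine Fintype.sum_equiv (MulAction.toPerm g⁻¹) _ _ ?_
  intro z
  obtain ⟨k, rfl⟩ := QuotientGroup.mk_surjective z
  have e : (MulAction.toPerm g⁻¹ : Equiv.Perm (G ⧸ P.B)) (k : G ⧸ P.B) = ((g⁻¹ * k : G) : G ⧸ P.B) := rfl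
  rw [e, AA_mk, AA_mk, inv_one, one_mul]

variable (P) in
open Classical in
/-- The number of chambers in `B w B / B`. -/
noncomputable def qq (w : WW P) : ℕ :=
  (Finset.univ.filter (fun z : G ⧸ P.B => AA P w ((1 : G) : G ⧸ P.B) z = 1)).card

lemma AA_zero_or_one (w : WW P) (x y : G ⧸ P.B) : AA P w x y = 0 ∨ AA P w x y = 1 := by
  classical
  simp only [AA]
  split_ifs <;> simp

lemma row_qq (w : WW P) (x : G ⧸ P.B) : ∑ z, AA P w x z = (qq P w : ℝ) := by
  classical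
  obtain ⟨g, rfl⟩ := QuotientGroup.mk_surjective x
  rw [row_eq, qq, Finset.card_filter, Nat.cast_sum]
  apply Finset.sum_congr rfl
  intro z _
  rcases AA_zero_or_one w ((1 : G) : G ⧸ P.B) z with h | h <;> simp [h]

lemma mulVec_AA (w : WW P) : (AA P w).mulVec 1 = (qq P w : ℝ) • (1 : G ⧸ P.B → ℝ) := by
  ext x
  simp only [Matrix.mulVec, dotProduct, Pi.one_apply, mul_one, Pi.smul_apply, smul_eq_mul]
  exact row_qq w x

open Classical in
/-- The parabolic relation matrix. -/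
lemma one_add_AA_mk (s : P.S) (g k : G) : (1 + AA P (sw P s)) (g : G ⧸ P.B) (k : G ⧸ P.B) =
    if g⁻¹ * k ∈ (P.parabolic {(s : G)}) then 1 else 0 := by
  classical
  have hmem : g⁻¹ * k ∈ (P.parabolic {(s : G)}) ↔ g⁻¹ * k ∈ P.B ∨ g⁻¹ * k ∈ C P (sw P s) := by
    rw [← SetLike.mem_coe, coe_parabolic_singleton s.2, C_sw]
    rfl
  rw [Matrix.add_apply, Matrix.one_apply, AA_mk]
  by_cases h : g⁻¹ * k ∈ P.B
  · have h2 : g⁻¹ * k ∉ C P (sw P s) := by
      intro h3
      have h4 : g⁻¹ * k ∈ C P (1 : WW P) := by rw [C_one]; exact h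
      exact sw_ne_one s (eq_of_mem_C h3 h4)
    rw [if_pos (QuotientGroup.eq.mpr h), if_neg h2, if_pos (hmem.mpr (Or.inl h))]
    simp
  · rw [if_neg (fun h2 => h (QuotientGroup.eq.mp h2))]
    by_cases h2 : g⁻¹ * k ∈ C P (sw P s)
    · rw [if_pos h2, if_pos (hmem.mpr (Or.inr h2))]
      simp
    · rw [if_neg h2, if_neg]
      · simp
      · rw [hmem]
        tauto

/-- The quadratic relation, in idempotent form. -/
lemma E_sq (s : P.S) : (1 + AA P (sw P s)) * (1 + AA P (sw P s)) =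
    ((qq P (sw P s) : ℝ) + 1) • (1 + AA P (sw P s)) := by
  classical
  have hrow : ∀ x : G ⧸ P.B, ∑ z, (1 + AA P (sw P s)) x z = (qq P (sw P s) : ℝ) + 1 := by
    intro x
    simp only [Matrix.add_apply]
    rw [Finset.sum_add_distrib, row_qq, add_comm]
    congr 1
    simp [Matrix.one_apply]
  ext x y
  obtain ⟨g, rfl⟩ := QuotientGroup.mk_surjective x
  obtain ⟨k, rfl⟩ := QuotientGroup.mk_surjective y
  rw [Matrix.mul_apply, Matrix.smul_apply, one_add_AA_mk, smul_eq_mul]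
  set Ps := P.parabolic {(s : G)} with hPs
  by_cases hgk : g⁻¹ * k ∈ Ps
  · rw [if_pos hgk, mul_one, ← hrow]
    apply Finset.sum_congr rfl
    intro z _
    obtain ⟨l, rfl⟩ := QuotientGroup.mk_surjective z
    rw [one_add_AA_mk, one_add_AA_mk]
    by_cases hgl : g⁻¹ * l ∈ Ps
    · have hlk : l⁻¹ * k ∈ Ps := by
        have e : l⁻¹ * k = (g⁻¹ * l)⁻¹ * (g⁻¹ * k) := by group
        rw [e]
        exact Ps.mul_mem (Ps.inv_mem hgl) hgk
      rw [if_pos hgl, if_pos hlk, one_mul]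
    · rw [if_neg hgl, zero_mul]
  · rw [if_neg hgk, mul_zero]
    apply Finset.sum_eq_zero
    intro z _
    obtain ⟨l, rfl⟩ := QuotientGroup.mk_surjective z
    rw [one_add_AA_mk, one_add_AA_mk]
    by_cases hgl : g⁻¹ * l ∈ Ps
    · by_cases hlk : l⁻¹ * k ∈ Ps
      · exfalso
        apply hgk
        have e : g⁻¹ * k = (g⁻¹ * l) * (l⁻¹ * k) := by group
        rw [e]
        exact Ps.mul_mem hgl hlk
      · rw [if_neg hlk, mul_zero]
    · rw [if_neg hgl, zero_mul]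

/-- The quadratic relation. -/
theorem AA_sq (s : P.S) : AA P (sw P s) * AA P (sw P s) =
    ((qq P (sw P s) : ℝ) - 1) • AA P (sw P s) + (qq P (sw P s) : ℝ) • (1 : Matrix _ _ ℝ) := by
  have h := E_sq s
  have h1 : (1 + AA P (sw P s)) * (1 + AA P (sw P s)) =
      1 + AA P (sw P s) + AA P (sw P s) + AA P (sw P s) * AA P (sw P s) := by
    rw [mul_add, add_mul, add_mul, one_mul, one_mul, mul_one]
    abel
  rw [h1] at h
  have h2 : AA P (sw P s) * AA P (sw P s) = ((qq P (sw P s) : ℝ) + 1) • (1 + AA P (sw P s)) -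
      (1 + AA P (sw P s) + AA P (sw P s)) := by
    rw [← h]; abel
  rw [h2]
  module

/-- Thickness. -/
theorem two_le_qq (s : P.S) : 2 ≤ qq P (sw P s) := by
  classical
  obtain ⟨b, hb, hb'⟩ := exists_s_mul_mul_s_notMem s.2
  have h1 : ((s : G) * b) ∈ C P (sw P s) := mul_mem_C_right hb (s_mem_C s)
  have h2 := mul_mem_C_of_s h1 (s_mem_C s)
  rw [sw_mul_self, C_one] at h2
  have h3 : (s : G) * b * s ∈ C P (sw P s) := by
    rcases h2 with h2 | h2
    · exact absurd h2 hb'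
    · exact h2
  have hne : (((s : G)) : G ⧸ P.B) ≠ (((s : G) * b * s : G) : G ⧸ P.B) := by
    intro h
    have h4 := QuotientGroup.eq.mp h
    have e : (s : G)⁻¹ * ((s : G) * b * s) = b * s := by group
    rw [e] at h4
    have h5 : (s : G) ∈ P.B := by
      have := P.B.mul_mem (P.B.inv_mem hb) h4
      rwa [inv_mul_cancel_left] at this
    exact s_notMem_B s.2 h5
  have hm : ∀ g ∈ C P (sw P s), ((g : G) : G ⧸ P.B) ∈
      Finset.univ.filter (fun z : G ⧸ P.B => AA P (sw P s) ((1 : G) : G ⧸ P.B) z = 1) := by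
    intro g hg
    rw [Finset.mem_filter]
    refine ⟨Finset.mem_univ _, AA_mk_eq_one ?_⟩
    rwa [inv_one, one_mul]
  have := Finset.one_lt_card.mpr ⟨_, hm _ (s_mem_C s), _, hm _ h3, hne⟩
  exact this

end Cfsg.Agent.Lib.FeitHigman.Mat
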