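import Cfsg.Agent.Lib.FeitHigman.Seq
import Mathlib

/-!
# The multiplicity formula (Feit–Higman)

An explicit idempotent in the algebra spanned by the `D i`; its trace is a natural number.
-/

set_option autoImplicit false

namespace Cfsg.Agent.Lib.FeitHigman.Rank

open Cfsg.Agent.Lib.FeitHigman.Seq

variable {X : Type*} [Fintype X] [DecidableEq X]

/-- The trace of an idempotent real matrix is a natural number. -/
theorem trace_idem (e : Matrix X X ℝ) (he : e * e = e) : ∃ ρ : ℕ, Matrix.trace e = ρ := by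
  let f : (X → ℝ) →ₗ[ℝ] (X → ℝ) := Matrix.toLin' e
  have hf : IsIdempotentElem f := by
    change (Matrix.toLin' e).comp (Matrix.toLin' e) = Matrix.toLin' e
    rw [← Matrix.toLin'_mul, he]
  have hp : LinearMap.IsProj (LinearMap.range f) f :=
    (LinearMap.isProj_range_iff_isIdempotentElem f).mpr hf
  refine ⟨Module.finrank ℝ (LinearMap.range f), ?_⟩
  have h := hp.trace
  rw [Matrix.trace_toLin'_eq] at h
  exact h

/-- The relations satisfied by the family `D`. -/
structure Rels (D : ℕ → Matrix X X ℝ) (q r : ℝ) : Prop where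
  h00 : ∀ i, D 0 * D i = D i
  h10 : D 1 * D 0 = D 1
  h11 : D 1 * D 1 = (r - 1) • D 1 + (r * (q + 1)) • D 0 + D 2
  h1s : ∀ i, D 1 * D (i + 2) = (r - 1) • D (i + 2) + (q * r) • D (i + 1) + D (i + 3)

/-- Partial sums of the idempotent. -/
noncomputable def pp (D : ℕ → Matrix X X ℝ) (τ q r : ℝ) : ℕ → Matrix X X ℝ
  | 0 => D 0
  | (L + 1) => pp D τ q r L + (w q r (L + 1) * z τ q r (L + 1)) • D (L + 1)

variable {D : ℕ → Matrix X X ℝ} {τ q r : ℝ}

lemma w_succ (hq : q ≠ 0) (hr : r ≠ 0) (L : ℕ) : w q r (L + 1) = (q * r) * w q r (L + 2) := by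
  have hq1 : q * r ≠ 0 := mul_ne_zero hq hr
  simp only [w]
  rw [pow_succ (q * r) (L + 1)]
  by_cases h : q + 1 = 0
  · simp [h]
  · field_simp

lemma w_one (hq : q ≠ 0) (hr : r ≠ 0) (hq1 : q + 1 ≠ 0) : w q r 1 * (r * (q + 1)) = 1 := by
  have hq' : q * r ≠ 0 := mul_ne_zero hq hr
  simp only [w]
  field_simp

/-- Christoffel–Darboux. -/
lemma cd (hR : Rels D q r) (hq : q ≠ 0) (hr : r ≠ 0) (hq1 : q + 1 ≠ 0) (L : ℕ) :
    D 1 * pp D τ q r (L + 1) - (τ + r - 1) • pp D τ q r (L + 1) =
      w q r (L + 1) • (z τ q r (L + 1) • D (L + 2) - z τ q r (L + 2) • D (L + 1)) := by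
  induction L with
  | zero =>
    have hW := w_one (q := q) (r := r) hq hr hq1
    have hz2 : z τ q r 2 = τ * (τ + r - 1) - r * (q + 1) := by
      change τ * (τ + r - 1) - (q * r) * ((q + 1) / q) = _
      field_simp
    simp only [pp, zero_add, z_one]
    rw [hz2, mul_add, Matrix.mul_smul, hR.h10, hR.h11]
    generalize w q r 1 = W at hW
    ext i j
    simp only [Matrix.sub_apply, Matrix.add_apply, Matrix.smul_apply, smul_eq_mul]
    generalize D 0 i j = d0
    generalize D 1 i j = d1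
    generalize D 2 i j = d2
    linear_combination ((τ + r - 1) * d0 - d1) * hW
  | succ L ih =>
    have h1 : pp D τ q r (L + 1 + 1) =
        pp D τ q r (L + 1) + (w q r (L + 2) * z τ q r (L + 2)) • D (L + 2) := rfl
    have h2 : D 1 * pp D τ q r (L + 1 + 1) - (τ + r - 1) • pp D τ q r (L + 1 + 1) =
        (D 1 * pp D τ q r (L + 1) - (τ + r - 1) • pp D τ q r (L + 1)) +
          (w q r (L + 2) * z τ q r (L + 2)) •
            ((r - 1) • D (L + 2) + (q * r) • D (L + 1) + D (L + 3)) -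
          ((τ + r - 1) * (w q r (L + 2) * z τ q r (L + 2))) • D (L + 2) := by
      rw [h1, mul_add, Matrix.mul_smul, hR.h1s L]
      module
    rw [h2, ih, w_succ hq hr L, z_succ τ q r (L + 1)]
    show _ = w q r (L + 2) • (z τ q r (L + 2) • D (L + 3) -
      (τ * z τ q r (L + 2) - (q * r) * z τ q r (L + 1)) • D (L + 2))
    module

lemma D0_pp (hR : Rels D q r) (L : ℕ) : D 0 * pp D τ q r L = pp D τ q r L := by
  induction L with
  | zero => exact hR.h00 0
  | succ L ih =>
    simp only [pp]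
    rw [mul_add, ih, Matrix.mul_smul, hR.h00]

lemma D_mul_eq (hR : Rels D q r) {v : Matrix X X ℝ} (hv0 : D 0 * v = v)
    (hv1 : D 1 * v = (τ + r - 1) • v) (hq : q ≠ 0) (i : ℕ) :
    D (i + 1) * v = z τ q r (i + 1) • v := by
  induction i using Nat.twoStepInduction with
  | zero => simpa using hv1
  | one =>
    have h2 : D 2 = D 1 * D 1 - (r - 1) • D 1 - (r * (q + 1)) • D 0 := by
      rw [hR.h11]; abel
    have hz2 : z τ q r 2 = τ * (τ + r - 1) - r * (q + 1) := by
      change τ * (τ + r - 1) - (q * r) * ((q + 1) / q) = _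
      field_simp
    show D 2 * v = z τ q r 2 • v
    rw [h2, sub_mul, sub_mul, Matrix.mul_assoc, hv1, Matrix.mul_smul, hv1, Matrix.smul_mul, hv1,
      Matrix.smul_mul, hv0, hz2]
    module
  | more i ih1 ih2 =>
    have h3 : D (i + 3) = D 1 * D (i + 2) - (r - 1) • D (i + 2) - (q * r) • D (i + 1) := by
      rw [hR.h1s]; abel
    have ih2' : D (i + 2) * v = z τ q r (i + 2) • v := ih2
    show D (i + 3) * v = z τ q r (i + 3) • v
    rw [h3, sub_mul, sub_mul, Matrix.mul_assoc, ih2', Matrix.mul_smul, hv1, Matrix.smul_mul, ih2',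
      Matrix.smul_mul, ih1, z_succ τ q r (i + 1)]
    show _ = (τ * z τ q r (i + 2) - (q * r) * z τ q r (i + 1)) • v
    module

lemma pp_mul (hR : Rels D q r) {v : Matrix X X ℝ} (hv0 : D 0 * v = v)
    (hv1 : D 1 * v = (τ + r - 1) • v) (hq : q ≠ 0) (L : ℕ) :
    pp D τ q r L * v = KK τ q r L • v := by
  induction L with
  | zero => simpa [pp, KK] using hv0
  | succ L ih =>
    simp only [pp, KK]
    rw [add_mul, ih, Matrix.smul_mul, D_mul_eq hR hv0 hv1 hq L]
    module

lemma trace_pp (L : ℕ) (htr : ∀ i < L, Matrix.trace (D (i + 1)) = 0) :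
    Matrix.trace (pp D τ q r L) = Matrix.trace (D 0) := by
  induction L with
  | zero => rfl
  | succ L ih =>
    simp only [pp]
    rw [Matrix.trace_add, Matrix.trace_smul, htr L (Nat.lt_succ_self L),
      ih (fun i hi => htr i (Nat.lt_succ_of_lt hi))]
    simp

/-- The rank formula. -/
theorem rank_main (hR : Rels D q r) (hq : q ≠ 0) (hr : r ≠ 0) (hq1 : q + 1 ≠ 0) (e : ℕ)
    {α β c : ℝ} (htop : D (e + 3) = α • D (e + 2) + β • D (e + 1))
    (hroot : z τ q r (e + 3) = α * z τ q r (e + 2) + β * z τ q r (e + 1))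
    (hc : c * (q * r) = q * r + β) (hc0 : c ≠ 0)
    (htr : ∀ i ≤ e + 1, Matrix.trace (D (i + 1)) = 0)
    (hK : KK τ q r (e + 1) + w q r (e + 2) * z τ q r (e + 2) ^ 2 / c ≠ 0) :
    ∃ ρ : ℕ, Matrix.trace (D 0) =
      ρ * (KK τ q r (e + 1) + w q r (e + 2) * z τ q r (e + 2) ^ 2 / c) := by
  set K := KK τ q r (e + 1) + w q r (e + 2) * z τ q r (e + 2) ^ 2 / c with hKdef
  set x := w q r (e + 2) * z τ q r (e + 2) / c with hx
  set p := pp D τ q r (e + 1) + x • D (e + 2) with hp
  have hv0 : D 0 * p = p := by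
    rw [hp, mul_add, D0_pp hR, Matrix.mul_smul, hR.h00]
  have hz3 : z τ q r (e + 3) = τ * z τ q r (e + 2) - (q * r) * z τ q r (e + 1) := rfl
  have hroot' : c * (q * r) * z τ q r (e + 1) = (τ - α) * z τ q r (e + 2) := by
    rw [hc]
    linear_combination -hroot + hz3
  have hxc : x * c = w q r (e + 2) * z τ q r (e + 2) := by
    rw [hx]; field_simp
  have hv1 : D 1 * p = (τ + r - 1) • p := by
    have h1 := cd (τ := τ) hR hq hr hq1 e
    have h2 : D 1 * D (e + 2) = (r - 1) • D (e + 2) + (q * r) • D (e + 1) +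
        (α • D (e + 2) + β • D (e + 1)) := by
      rw [hR.h1s, htop]
    have e1 : D 1 * p = D 1 * pp D τ q r (e + 1) + x • (D 1 * D (e + 2)) := by
      rw [hp, mul_add, Matrix.mul_smul]
    rw [sub_eq_iff_eq_add] at h1
    rw [e1, h1, h2, hp, w_succ hq hr e]
    have hA : (q * r) * w q r (e + 2) * z τ q r (e + 1) = x * (τ - α) := by
      have : c ≠ 0 := hc0
      apply mul_right_cancel₀ hc0
      calc (q * r) * w q r (e + 2) * z τ q r (e + 1) * c
          = w q r (e + 2) * (c * (q * r) * z τ q r (e + 1)) := by ring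
        _ = w q r (e + 2) * ((τ - α) * z τ q r (e + 2)) := by rw [hroot']
        _ = (w q r (e + 2) * z τ q r (e + 2)) * (τ - α) := by ring
        _ = x * c * (τ - α) := by rw [hxc]
        _ = x * (τ - α) * c := by ring
    have hB : (q * r) * w q r (e + 2) * z τ q r (e + 2) = x * (q * r + β) := by
      rw [← hc]; linear_combination -(q * r) * hxc
    ext i j
    simp only [Matrix.sub_apply, Matrix.add_apply, Matrix.smul_apply, smul_eq_mul]
    generalize D (e + 2) i j = d2
    generalize D (e + 1) i j = d1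
    generalize pp D τ q r (e + 1) i j = d0
    linear_combination d2 * hA - d1 * hB
  have hpp : p * p = K • p := by
    have h1 : p * p = pp D τ q r (e + 1) * p + x • (D (e + 2) * p) := by
      conv_lhs => rw [hp]
      rw [add_mul, Matrix.smul_mul]
    rw [h1, pp_mul hR hv0 hv1 hq, D_mul_eq hR hv0 hv1 hq (e + 1), smul_smul, ← add_smul]
    congr 1
    rw [hKdef, hx]
    ring
  have htrp : Matrix.trace p = Matrix.trace (D 0) := by
    have h2 : Matrix.trace (D (e + 2)) = 0 := htr (e + 1) le_rfl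
    rw [hp, Matrix.trace_add, Matrix.trace_smul, h2,
      trace_pp (e + 1) (fun i hi => htr i (Nat.le_of_lt hi))]
    simp
  obtain ⟨ρ, hρ⟩ := trace_idem (K⁻¹ • p) (by
    rw [Matrix.smul_mul, Matrix.mul_smul, hpp, smul_smul, smul_smul]
    congr 1
    field_simp)
  refine ⟨ρ, ?_⟩
  rw [Matrix.trace_smul, htrp, smul_eq_mul] at hρ
  rw [← hρ]
  field_simp

end Cfsg.Agent.Lib.FeitHigman.Rank
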