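import Mathlib

/-!
# Sequences for the Feit–Higman theorem

`U` is the Lucas sequence with parameters `τ, Q`; `z` is the standard sequence of the collinearity
graph of a generalised polygon with parameters `q, r`.  The key result is the closed form of the
partial sums `KK` of `z²`-type weights.
-/

set_option autoImplicit false

namespace Cfsg.Agent.Lib.FeitHigman.Seq

/-- Lucas sequence of the second kind. -/
noncomputable def U (τ Q : ℝ) : ℕ → ℝ
  | 0 => 1
  | 1 => τ
  | (n + 2) => τ * U τ Q (n + 1) - Q * U τ Q n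

@[simp] lemma U_zero (τ Q : ℝ) : U τ Q 0 = 1 := rfl
@[simp] lemma U_one (τ Q : ℝ) : U τ Q 1 = τ := rfl
lemma U_succ (τ Q : ℝ) (n : ℕ) : U τ Q (n + 2) = τ * U τ Q (n + 1) - Q * U τ Q n := rfl

/-- The standard sequence. -/
noncomputable def z (τ q r : ℝ) : ℕ → ℝ
  | 0 => (q + 1) / q
  | 1 => τ + r - 1
  | (n + 2) => τ * z τ q r (n + 1) - (q * r) * z τ q r n

@[simp] lemma z_zero (τ q r : ℝ) : z τ q r 0 = (q + 1) / q := rfl
@[simp] lemma z_one (τ q r : ℝ) : z τ q r 1 = τ + r - 1 := rfl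
lemma z_succ (τ q r : ℝ) (n : ℕ) :
    z τ q r (n + 2) = τ * z τ q r (n + 1) - (q * r) * z τ q r n := rfl

/-- The weights. -/
noncomputable def w (q r : ℝ) (i : ℕ) : ℝ := (q * r) / (r * (q + 1) * (q * r) ^ i)

/-- Partial sums. -/
noncomputable def KK (τ q r : ℝ) : ℕ → ℝ
  | 0 => 1
  | (L + 1) => KK τ q r L + w q r (L + 1) * z τ q r (L + 1) ^ 2

/-- The normalised squares. -/
noncomputable def Y (τ q r : ℝ) (n : ℕ) : ℝ := z τ q r n ^ 2 / (q * r) ^ n

/-- The invariant. -/
noncomputable def c0 (τ q r : ℝ) : ℝ :=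
  z τ q r 1 ^ 2 - τ * z τ q r 1 * z τ q r 0 + (q * r) * z τ q r 0 ^ 2

variable (τ q r : ℝ)

lemma z_eq (n : ℕ) :
    z τ q r (n + 2) = z τ q r 1 * U τ (q * r) (n + 1) - (q * r) * z τ q r 0 * U τ (q * r) n := by
  induction n using Nat.twoStepInduction with
  | zero => simp [z_succ]; ring
  | one => simp [z_succ, U_succ]; ring
  | more n ih1 ih2 =>
    have h1 := z_succ τ q r (n + 2)
    have h2 := U_succ τ (q * r) (n + 2)
    have h3 := U_succ τ (q * r) (n + 1)
    have h4 := U_succ τ (q * r) n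
    simp only [add_assoc] at *
    norm_num at *
    rw [h1, ih2, ih1, h3, h4]
    ring

lemma inv_U (n : ℕ) :
    U τ (q * r) (n + 1) ^ 2 - τ * U τ (q * r) (n + 1) * U τ (q * r) n +
      (q * r) * U τ (q * r) n ^ 2 = (q * r) ^ (n + 1) := by
  induction n with
  | zero => simp; ring
  | succ n ih =>
    rw [U_succ, pow_succ (q * r) (n + 1), ← ih]
    ring

lemma inv_z (n : ℕ) :
    z τ q r (n + 1) ^ 2 - τ * z τ q r (n + 1) * z τ q r n + (q * r) * z τ q r n ^ 2 =
      (q * r) ^ n * c0 τ q r := by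
  induction n with
  | zero => simp [c0]
  | succ n ih =>
    rw [z_succ, pow_succ]
    linear_combination (q * r) * ih

variable {q r}

lemma KK_closed (hq : q ≠ 0) (hr : r ≠ 0) (hq1 : q + 1 ≠ 0) (L : ℕ) :
    (4 * (q * r) - τ ^ 2) * (KK τ q r L - 1) =
      ((q * r) ^ 2 / (r * (q + 1))) *
        (2 * (c0 τ q r / (q * r)) * L - Y τ q r (L + 1) + Y τ q r L + Y τ q r 1 - Y τ q r 0) := by
  have hQ : q * r ≠ 0 := mul_ne_zero hq hr
  induction L with
  | zero => simp [KK]
  | succ L ih =>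
    have e1 : KK τ q r (L + 1) - 1 = (KK τ q r L - 1) + w q r (L + 1) * z τ q r (L + 1) ^ 2 := by
      simp only [KK]; ring
    rw [e1, mul_add, ih]
    -- the key one-step identity
    have hstep : (4 * (q * r) - τ ^ 2) * Y τ q r (L + 1) =
        (q * r) * (2 * (c0 τ q r / (q * r)) - Y τ q r (L + 2) + 2 * Y τ q r (L + 1) - Y τ q r L) := by
      have hp : (q * r) ^ (L + 1) ≠ 0 := pow_ne_zero _ hQ
      have hinv := inv_z τ q r L
      simp only [Y]
      rw [z_succ τ q r L]
      have hpw : (q * r) ^ (L + 2) = (q * r) ^ (L + 1) * (q * r) := pow_succ _ _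
      have hpw' : (q * r) ^ (L + 1) = (q * r) ^ L * (q * r) := pow_succ _ _
      have hp' : (q * r) ^ L ≠ 0 := pow_ne_zero _ hQ
      rw [hpw, hpw']
      generalize z τ q r (L + 1) = u at hinv ⊢
      generalize z τ q r L = v at hinv ⊢
      generalize hc : c0 τ q r = c at hinv ⊢
      generalize hP : (q * r) ^ L = P at hinv hp' ⊢
      generalize hQQ : q * r = Q at hinv hQ ⊢
      field_simp
      linear_combination (2 * Q) * hinv
    have hw : w q r (L + 1) * z τ q r (L + 1) ^ 2 =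
        ((q * r) / (r * (q + 1))) * Y τ q r (L + 1) := by
      simp only [w, Y]
      field_simp
    rw [hw]
    have e2 : (4 * (q * r) - τ ^ 2) * (((q * r) / (r * (q + 1))) * Y τ q r (L + 1)) =
        ((q * r) / (r * (q + 1))) * ((4 * (q * r) - τ ^ 2) * Y τ q r (L + 1)) := by ring
    rw [e2, hstep]
    push_cast
    field_simp
    ring

/-- `c0` in factored form. -/
lemma c0_eq (hq : q ≠ 0) : c0 τ q r * q = (q * r + 1 - τ) * (τ + q + r) := by
  simp only [c0, z_zero, z_one]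
  field_simp
  ring

lemma w_mul_sq (hq : q ≠ 0) (hr : r ≠ 0) (hq1 : q + 1 ≠ 0) (n : ℕ) :
    w q r n * z τ q r n ^ 2 = ((q * r) / (r * (q + 1))) * Y τ q r n := by
  have hQ : q * r ≠ 0 := mul_ne_zero hq hr
  simp only [w, Y]
  field_simp

/-- Values at a root, even case. -/
lemma even_values (hq : q ≠ 0) (hr : r ≠ 0) {e : ℕ} (hU : U τ (q * r) (e + 1) = 0) :
    Y τ q r (e + 2) = ((q + 1) / q) ^ 2 ∧
      Y τ q r (e + 1) = (τ + r - 1 - (q + 1) / q * τ) ^ 2 / (q * r) := by
  have hQ : q * r ≠ 0 := mul_ne_zero hq hr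
  have hinv := inv_U τ q r e
  rw [hU] at hinv
  have hUe : U τ (q * r) e ^ 2 = (q * r) ^ e := by
    have : (q * r) * U τ (q * r) e ^ 2 = (q * r) * (q * r) ^ e := by
      rw [← pow_succ']
      linear_combination hinv
    exact mul_left_cancel₀ hQ this
  have hz2 : z τ q r (e + 2) = - (q * r) * ((q + 1) / q) * U τ (q * r) e := by
    rw [z_eq, hU]
    simp
  have hz1 : z τ q r (e + 1) = (τ + r - 1 - (q + 1) / q * τ) * U τ (q * r) e := by
    cases e with
    | zero =>
      have hU' : τ = 0 := hU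
      change τ + r - 1 = (τ + r - 1 - (q + 1) / q * τ) * 1
      rw [hU']
      ring
    | succ e =>
      have h1 : (q * r) * U τ (q * r) e = τ * U τ (q * r) (e + 1) := by
        have := U_succ τ (q * r) e
        rw [hU] at this
        linear_combination this
      rw [z_eq]
      simp only [z_zero, z_one]
      linear_combination (-(q + 1) / q) * h1
  constructor
  · simp only [Y]
    rw [hz2, mul_pow, hUe]
    have : (q * r) ^ e ≠ 0 := pow_ne_zero _ hQ
    rw [pow_add]
    field_simp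
  · simp only [Y]
    rw [hz1, mul_pow, hUe, pow_succ (q * r) e]
    have : (q * r) ^ e ≠ 0 := pow_ne_zero _ hQ
    field_simp

/-- The root condition, even case. -/
lemma even_root (hq : q ≠ 0) {e : ℕ} (hU : U τ (q * r) (e + 1) = 0) :
    z τ q r (e + 3) = ((r - 1) * q) * z τ q r (e + 2) + (r * q ^ 2) * z τ q r (e + 1) := by
  have hz2 : z τ q r (e + 2) = - (q * r) * ((q + 1) / q) * U τ (q * r) e := by
    rw [z_eq, hU]
    simp
  have hz1 : z τ q r (e + 1) = (τ + r - 1 - (q + 1) / q * τ) * U τ (q * r) e := by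
    cases e with
    | zero =>
      have hU' : τ = 0 := hU
      change τ + r - 1 = (τ + r - 1 - (q + 1) / q * τ) * 1
      rw [hU']
      ring
    | succ e =>
      have h1 : (q * r) * U τ (q * r) e = τ * U τ (q * r) (e + 1) := by
        have := U_succ τ (q * r) e
        rw [hU] at this
        linear_combination this
      rw [z_eq]
      simp only [z_zero, z_one]
      linear_combination (-(q + 1) / q) * h1
  have h3 : z τ q r (e + 3) = τ * z τ q r (e + 2) - (q * r) * z τ q r (e + 1) := rfl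
  rw [h3, hz2, hz1]
  generalize U τ (q * r) e = u
  field_simp
  ring

/-- The closed form of the weight, even case. -/
theorem even_closed (hq : q ≠ 0) (hr : r ≠ 0) (hq1 : q + 1 ≠ 0) {e : ℕ}
    (hU : U τ (q * r) (e + 1) = 0) :
    (4 * (q * r) - τ ^ 2) *
        (KK τ q r (e + 1) + w q r (e + 2) * z τ q r (e + 2) ^ 2 / (q + 1)) * (q + 1) =
      2 * (e + 2) * ((q * r + 1 - τ) * (τ + q + r)) := by
  obtain ⟨h2, h1⟩ := even_values τ hq hr hU
  have hc := KK_closed τ hq hr hq1 (e + 1)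
  rw [show e + 1 + 1 = e + 2 from rfl, h2, h1] at hc
  have hY1 : Y τ q r 1 = (τ + r - 1) ^ 2 / (q * r) := by simp [Y]
  have hY0 : Y τ q r 0 = ((q + 1) / q) ^ 2 := by simp [Y]
  rw [hY1, hY0] at hc
  rw [w_mul_sq τ hq hr hq1, h2]
  have hc0 := c0_eq τ (r := r) hq
  have e1 : c0 τ q r = (q * r + 1 - τ) * (τ + q + r) / q := by
    rw [eq_div_iff hq]; exact hc0
  rw [e1] at hc
  push_cast at hc
  have key : (4 * (q * r) - τ ^ 2) *
        (1 + q * r / (r * (q + 1)) * ((q + 1) / q) ^ 2 / (q + 1)) * (q + 1) +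
      (q + 1) * ((q * r) ^ 2 / (r * (q + 1)) *
      (2 * ((q * r + 1 - τ) * (τ + q + r) / q / (q * r)) * (↑e + 1) - ((q + 1) / q) ^ 2 +
            (τ + r - 1 - (q + 1) / q * τ) ^ 2 / (q * r) +
          (τ + r - 1) ^ 2 / (q * r) -
        ((q + 1) / q) ^ 2)) = 2 * (e + 2) * ((q * r + 1 - τ) * (τ + q + r)) := by
    field_simp
    ring
  linear_combination (q + 1) * hc + key

/-- Auxiliary identity for the odd case. -/
lemma z_odd (hq : q ≠ 0) (n : ℕ) :
    z τ q q (n + 2) - (q * q) * z τ q q (n + 1) =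
      (τ - q * q - 1) * (U τ (q * q) (n + 1) + q * U τ (q * q) n) := by
  induction n using Nat.twoStepInduction with
  | zero =>
    change (τ * (τ + q - 1) - (q * q) * ((q + 1) / q)) - (q * q) * (τ + q - 1) =
      (τ - q * q - 1) * (τ + q * 1)
    field_simp
    ring
  | one =>
    change ((τ * (τ * (τ + q - 1) - (q * q) * ((q + 1) / q)) - (q * q) * (τ + q - 1)) -
      (q * q) * (τ * (τ + q - 1) - (q * q) * ((q + 1) / q))) =
      (τ - q * q - 1) * ((τ * τ - (q * q) * 1) + q * τ)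
    field_simp
    ring
  | more n ih1 ih2 =>
    have h1 : z τ q q (n + 4) = τ * z τ q q (n + 3) - (q * q) * z τ q q (n + 2) := rfl
    have h2 : z τ q q (n + 3) = τ * z τ q q (n + 2) - (q * q) * z τ q q (n + 1) := rfl
    have h3 : U τ (q * q) (n + 3) = τ * U τ (q * q) (n + 2) - (q * q) * U τ (q * q) (n + 1) := rfl
    have h4 : U τ (q * q) (n + 2) = τ * U τ (q * q) (n + 1) - (q * q) * U τ (q * q) n := rfl
    change z τ q q (n + 3) - (q * q) * z τ q q (n + 2) =
      (τ - q * q - 1) * (U τ (q * q) (n + 2) + q * U τ (q * q) (n + 1)) at ih2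
    change z τ q q (n + 4) - (q * q) * z τ q q (n + 3) =
      (τ - q * q - 1) * (U τ (q * q) (n + 3) + q * U τ (q * q) (n + 2))
    linear_combination h1 + τ * ih2 - (q * q) * ih1 - (q * q) * h2 - (τ - q * q - 1) * h3 -
      (τ - q * q - 1) * q * h4

/-- Values at a root, odd case. -/
lemma odd_values (hq : q ≠ 0) {e : ℕ} (hU : U τ (q * q) (e + 2) + q * U τ (q * q) (e + 1) = 0)
    (hτ : 2 * q + τ ≠ 0) :
    z τ q q (e + 3) = (q * q) * z τ q q (e + 2) ∧ Y τ q q (e + 2) = (2 * q + τ) / q ^ 3 ∧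
      Y τ q q (e + 3) = (q * q) * ((2 * q + τ) / q ^ 3) := by
  have hQ : q * q ≠ 0 := mul_ne_zero hq hq
  have h3 : z τ q q (e + 3) = (q * q) * z τ q q (e + 2) := by
    have := z_odd τ hq (e + 1)
    rw [hU] at this
    linear_combination this
  have hU2 : U τ (q * q) (e + 2) = - q * U τ (q * q) (e + 1) := by linear_combination hU
  have hinv := inv_U τ q q (e + 1)
  rw [show e + 1 + 1 = e + 2 from rfl] at hinv
  rw [hU2] at hinv
  have hpos : q * (2 * q + τ) * U τ (q * q) (e + 1) ^ 2 = (q * q) ^ (e + 2) := by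
    linear_combination hinv
  have hz : z τ q q (e + 2) = - U τ (q * q) (e + 1) * (2 * q + τ) / q := by
    have h1 := U_succ τ (q * q) e
    rw [hU2] at h1
    have h2 : (q * q) * U τ (q * q) e = (τ + q) * U τ (q * q) (e + 1) := by linear_combination h1
    rw [z_eq]
    simp only [z_zero, z_one]
    have e1 : (q * q) * ((q + 1) / q) * U τ (q * q) e = (q + 1) / q * ((q * q) * U τ (q * q) e) := by
      ring
    rw [e1, h2]
    generalize U τ (q * q) (e + 1) = b
    field_simp
    ring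
  have hY : Y τ q q (e + 2) = (2 * q + τ) / q ^ 3 := by
    simp only [Y]
    rw [hz, ← hpos]
    have hu : U τ (q * q) (e + 1) ≠ 0 := by
      intro h0
      rw [h0] at hpos
      have : (q * q) ^ (e + 2) ≠ 0 := pow_ne_zero _ hQ
      exact this (by rw [← hpos]; ring)
    generalize U τ (q * q) (e + 1) = b at hu ⊢
    field_simp
  refine ⟨h3, hY, ?_⟩
  simp only [Y] at hY ⊢
  rw [h3, pow_succ (q * q) (e + 2), mul_pow, ← hY]
  have : (q * q) ^ (e + 2) ≠ 0 := pow_ne_zero _ hQ
  field_simp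

/-- The closed form of the weight, odd case. -/
theorem odd_closed (hq : q ≠ 0) (hq1 : q + 1 ≠ 0) {e : ℕ}
    (hU : U τ (q * q) (e + 2) + q * U τ (q * q) (e + 1) = 0) (hτ : 2 * q + τ ≠ 0) :
    (4 * (q * q) - τ ^ 2) * KK τ q q (e + 2) * (q + 1) =
      (2 * e + 5) * ((q * q + 1 - τ) * (τ + q + q)) := by
  obtain ⟨-, h2, h3⟩ := odd_values τ hq hU hτ
  have hc := KK_closed τ hq hq hq1 (e + 2)
  rw [show e + 2 + 1 = e + 3 from rfl, h2, h3] at hc
  have hY1 : Y τ q q 1 = (τ + q - 1) ^ 2 / (q * q) := by simp [Y]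
  have hY0 : Y τ q q 0 = ((q + 1) / q) ^ 2 := by simp [Y]
  rw [hY1, hY0] at hc
  have hc0 := c0_eq τ (r := q) hq
  have e1 : c0 τ q q = (q * q + 1 - τ) * (τ + q + q) / q := by
    rw [eq_div_iff hq]; exact hc0
  rw [e1] at hc
  push_cast at hc
  have key : (4 * (q * q) - τ ^ 2) * (q + 1) +
      (q + 1) * ((q * q) ^ 2 / (q * (q + 1)) *
        (2 * ((q * q + 1 - τ) * (τ + q + q) / q / (q * q)) * (↑e + 2) -
            (q * q) * ((2 * q + τ) / q ^ 3) + (2 * q + τ) / q ^ 3 +
          (τ + q - 1) ^ 2 / (q * q) - ((q + 1) / q) ^ 2)) =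
      (2 * e + 5) * ((q * q + 1 - τ) * (τ + q + q)) := by
    field_simp
    ring
  linear_combination (q + 1) * hc + key

/-- Trigonometric form of `U`. -/
lemma U_sin {Q ρ : ℝ} (hQ : Q = ρ ^ 2) (φ : ℝ) (n : ℕ) :
    U (2 * ρ * Real.cos φ) Q n * Real.sin φ = ρ ^ n * Real.sin ((n + 1) * φ) := by
  induction n using Nat.twoStepInduction with
  | zero => simp
  | one =>
    have : Real.sin (((1 : ℕ) + 1 : ℝ) * φ) = 2 * Real.sin φ * Real.cos φ := by
      rw [← Real.sin_two_mul]; norm_num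
    rw [this]
    simp only [U_one]
    ring
  | more n ih1 ih2 =>
    have key : Real.sin (((n : ℝ) + 3) * φ) + Real.sin (((n : ℝ) + 1) * φ) =
        2 * Real.sin (((n : ℝ) + 2) * φ) * Real.cos φ := by
      have e1 : ((n : ℝ) + 3) * φ = ((n : ℝ) + 2) * φ + φ := by ring
      have e2 : ((n : ℝ) + 1) * φ = ((n : ℝ) + 2) * φ - φ := by ring
      rw [e1, e2, Real.sin_add, Real.sin_sub]
      ring
    have e0 : U (2 * ρ * Real.cos φ) Q (n + 2) * Real.sin φ =
        (2 * ρ * Real.cos φ) * (U (2 * ρ * Real.cos φ) Q (n + 1) * Real.sin φ) -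
          Q * (U (2 * ρ * Real.cos φ) Q n * Real.sin φ) := by
      rw [U_succ]; ring
    rw [e0, ih2, ih1, hQ]
    have e3 : (((n + 1 : ℕ) : ℝ) + 1) * φ = ((n : ℝ) + 2) * φ := by push_cast; ring
    have e4 : (((n + 2 : ℕ) : ℝ) + 1) * φ = ((n : ℝ) + 3) * φ := by push_cast; ring
    rw [e3, e4]
    linear_combination (-ρ ^ (n + 2)) * key

end Cfsg.Agent.Lib.FeitHigman.Seq
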