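import Cfsg.Agent.Lib.BNPair.Simple
import Mathlib

/-!
# Alternating words in a (B,N)-pair of rank 2
-/

set_option autoImplicit false

namespace Cfsg.Agent.Lib.FeitHigman.Words

open Cfsg.Agent.Lib.BNPair.Coxeter Cfsg.Agent.Lib.BNPair.Basic Cfsg.Agent.Lib.BNPair.Simple

variable {G : Type*} [Group G] {P : Cfsg.BNPair G}

lemma altP_succ {H : Type*} [Group H] (x y : H) (k : ℕ) : altP x y (k + 1) = x * altP y x k := rfl

lemma altP_zero {H : Type*} [Group H] (x y : H) : altP x y 0 = 1 := rfl

/-- Alternating words have length at most their number of letters. -/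
lemma len_alt_le (c d : P.S) (k : ℕ) : len P (altP (sw P c) (sw P d) k) ≤ k := by
  induction k generalizing c d with
  | zero => simp [altP_zero, len_one]
  | succ k ih =>
    rw [altP_succ]
    have h1 := len_sw_mul_le c (altP (sw P d) (sw P c) k)
    have h2 := ih d c
    omega

lemma helper {e f : P.S} {k : ℕ} (h : len P (sw P e * altP (sw P e) (sw P f) k) = k + 1) : k = 0 := by
  cases k with
  | zero => rfl
  | succ k =>
    exfalso
    rw [altP_succ, ← mul_assoc, sw_mul_self, one_mul] at h
    have := len_alt_le f e k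
    omega

/-- Every element of the Weyl group is an alternating word. -/
lemma alt_of_len {c d : P.S} (hS : ∀ s : P.S, s = c ∨ s = d) (k : ℕ) :
    ∀ w : WW P, len P w = k →
      w = altP (sw P c) (sw P d) k ∨ w = altP (sw P d) (sw P c) k := by
  induction k with
  | zero =>
    intro w hw
    left
    exact eq_one_of_len_eq_zero hw
  | succ k ih =>
    intro w hw
    obtain ⟨s, v, rfl, hv⟩ := exists_decomp_left hw
    rcases hS s with rfl | rfl
    · rcases ih v hv with rfl | rfl
      · have := helper hw
        subst this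
        left
        rfl
      · left; rfl
    · rcases ih v hv with rfl | rfl
      · right; rfl
      · have := helper hw
        subst this
        right
        rfl

/-- One step of the computation of the length of alternating words. -/
lemma step {c d : P.S} (hS : ∀ s : P.S, s = c ∨ s = d) (k : ℕ)
    (h0 : k ≠ 0 → (sw P c * sw P d) ^ k ≠ 1)
    (hIH : len P (altP (sw P d) (sw P c) k) = k) :
    len P (altP (sw P c) (sw P d) (k + 1)) = k + 1 := by
  rw [altP_succ]
  rcases len_sw_mul_cases c (altP (sw P d) (sw P c) k) with h | h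
  · rw [h, hIH]
  · exfalso
    rw [hIH] at h
    obtain ⟨k', rfl⟩ : ∃ k', k = k' + 1 := ⟨k - 1, by omega⟩
    have hlen : len P (sw P c * altP (sw P d) (sw P c) (k' + 1)) = k' := by omega
    set g := sw P c * altP (sw P d) (sw P c) (k' + 1) with hg
    have hx : altP (sw P d) (sw P c) (k' + 1) = sw P c * g := by
      rw [hg, ← mul_assoc, sw_mul_self, one_mul]
    have case1 : g = altP (sw P d) (sw P c) k' → False := by
      intro hg2
      have e1 : altP (sw P d) (sw P c) (k' + 1) = altP (sw P c) (sw P d) (k' + 1) := by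
        rw [hx, hg2]; rfl
      have e2 := altP_eq (sw_mul_self c) (sw_mul_self d) (k' + 1)
      rw [← e1] at e2
      have e3 : (sw P c * sw P d) ^ (k' + 1) = 1 := by
        have := mul_eq_right.mp e2.symm
        exact this
      exact h0 (by omega) e3
    rcases alt_of_len hS k' g hlen with hg2 | hg2
    · cases k' with
      | zero => exact case1 hg2
      | succ k'' =>
        have e1 : altP (sw P d) (sw P c) (k'' + 1 + 1) = altP (sw P d) (sw P c) k'' := by
          rw [hx, hg2, altP_succ, ← mul_assoc, sw_mul_self, one_mul]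
        have := len_alt_le d c k''
        rw [e1] at hIH
        omega
    · exact case1 hg2

/-- The length of the alternating words. -/
theorem len_alt {c d : P.S} (hS : ∀ s : P.S, s = c ∨ s = d) {m : ℕ}
    (hm : ∀ n, 0 < n → n < m → (sw P c * sw P d) ^ n ≠ 1 ∧ (sw P d * sw P c) ^ n ≠ 1) (k : ℕ)
    (hk : k ≤ m) :
    len P (altP (sw P c) (sw P d) k) = k ∧ len P (altP (sw P d) (sw P c) k) = k := by
  induction k with
  | zero => simp [altP_zero, len_one]
  | succ k ih =>
    obtain ⟨h1, h2⟩ := ih (by omega)
    have hS' : ∀ s : P.S, s = d ∨ s = c := fun s => (hS s).symm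
    exact ⟨step hS k (fun h0 => (hm k (by omega) (by omega)).1) h2,
      step hS' k (fun h0 => (hm k (by omega) (by omega)).2) h1⟩

lemma altP_even {H : Type*} [Group H] (x y : H) (i : ℕ) : altP x y (2 * i) = (x * y) ^ i := by
  induction i with
  | zero => simp [altP_zero]
  | succ i ih =>
    rw [show 2 * (i + 1) = (2 * i + 1) + 1 by ring, altP_succ, altP_succ, ih, pow_succ', mul_assoc]

lemma altP_odd {H : Type*} [Group H] (x y : H) (i : ℕ) : altP x y (2 * i + 1) = (x * y) ^ i * x := by
  induction i with
  | zero => simp [altP_zero, altP_succ]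
  | succ i ih =>
    rw [show 2 * (i + 1) + 1 = (2 * i + 1) + 1 + 1 by ring, altP_succ, altP_succ, ih, pow_succ']
    simp only [mul_assoc]

lemma even_len (c d : P.S) (k : ℕ) : Even (len P ((sw P c * sw P d) ^ k)) := by
  induction k with
  | zero => simp [len_one]
  | succ k ih =>
    rw [pow_succ', mul_assoc]
    have h1 := len_sw_mul_cases c (sw P d * (sw P c * sw P d) ^ k)
    have h2 := len_sw_mul_cases d ((sw P c * sw P d) ^ k)
    rcases ih with ⟨a, ha⟩
    rw [even_iff_two_dvd]
    omega

/-- The order of the Weyl group. -/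
theorem card_WW [Finite (WW P)] {c d : P.S} (hS : ∀ s : P.S, s = c ∨ s = d) :
    Nat.card (WW P) = 2 * orderOf (sw P c * sw P d) := by
  set x := sw P c with hx
  set y := sw P d with hy
  have hxx : x * x = 1 := sw_mul_self c
  have hyy : y * y = 1 := sw_mul_self d
  set Z := Subgroup.zpowers (x * y) with hZ
  have hyx : y * x = (x * y)⁻¹ := by
    rw [mul_inv_rev, show x⁻¹ = x from sw_inv c, show y⁻¹ = y from sw_inv d]
  have hxZ : x ∉ Z := by
    intro hmem
    have hm2 : x ∈ Submonoid.powers (x * y) := by
      rw [mem_powers_iff_mem_zpowers]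
      exact hmem
    obtain ⟨k, hk⟩ := Submonoid.mem_powers_iff _ _ |>.mp hm2
    have h1 := even_len c d k
    rw [← hx, ← hy, hk, hx, len_sw] at h1
    exact absurd h1 (by decide)
  have hcover : ∀ w : WW P, w ∈ Z ∨ w * x ∈ Z := by
    intro w
    have hmem : x * y ∈ Z := Subgroup.mem_zpowers _
    rcases alt_of_len hS (len P w) w rfl with h | h <;>
      rcases Nat.even_or_odd' (len P w) with ⟨i, hi | hi⟩ <;> rw [hi] at h
    · left
      rw [h, altP_even]
      exact Subgroup.pow_mem _ hmem _
    · right
      rw [h, altP_odd, mul_assoc, hxx, mul_one]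
      exact Subgroup.pow_mem _ hmem _
    · left
      rw [h, altP_even, hyx]
      exact Subgroup.pow_mem _ (Subgroup.inv_mem _ hmem) _
    · right
      rw [h, altP_odd, mul_assoc, ← pow_succ, hyx]
      exact Subgroup.pow_mem _ (Subgroup.inv_mem _ hmem) _
  have hindex : Z.index = 2 := by
    rw [Subgroup.index_eq_two_iff]
    refine ⟨x, fun b => ?_⟩
    by_cases hb : b ∈ Z
    · right
      refine ⟨hb, fun h => hxZ ?_⟩
      have := Subgroup.mul_mem _ (Subgroup.inv_mem _ hb) h
      rwa [inv_mul_cancel_left] at this
    · left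
      exact ⟨(hcover b).resolve_left hb, hb⟩
  have h := Subgroup.index_mul_card Z
  rw [hindex, Nat.card_zpowers] at h
  exact h.symm

end Cfsg.Agent.Lib.FeitHigman.Words
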